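import Mathlib
import Cfsg.Agent.H84.PslStmt

/-!
# Piece P5a of S5163 (helper84, board post 1767): `R1Basic`

`R1` (image of "identity plus first row") is an abelian subgroup of `Ubar` normalized by `Ubar`.
-/

set_option autoImplicit false

namespace Cfsg.Agent.Lib.Helper14.PslP5a

open Cfsg.Agent.H84.PslDefs Matrix

universe u

variable {n : ℕ} {K : Type u} [Field K]

/-- matrix form of `mem_Uni` -/
theorem mem_Uni' (g : SpecialLinearGroup (Fin n) K) :
    g ∈ Uni n K ↔ (∀ i j : Fin n, j < i → (g : Matrix (Fin n) (Fin n) K) i j = 0) ∧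
      ∀ i, (g : Matrix (Fin n) (Fin n) K) i i = 1 := mem_Uni n K g

/-- matrix form of `mem_V1` -/
theorem mem_V1' (g : SpecialLinearGroup (Fin n) K) :
    g ∈ V1 n K ↔ (∀ i j : Fin n, i ≠ j → i.val ≠ 0 → (g : Matrix (Fin n) (Fin n) K) i j = 0) ∧
      ∀ i, (g : Matrix (Fin n) (Fin n) K) i i = 1 := mem_V1 n K g

theorem V1_le_Uni : V1 n K ≤ Uni n K := by
  intro g hg
  rw [mem_V1'] at hg
  rw [mem_Uni']
  refine ⟨fun i j hji => hg.1 i j (ne_of_gt hji) ?_, hg.2⟩
  have : j.val < i.val := hji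
  omega

theorem conj_mem_V1 (u v : SpecialLinearGroup (Fin n) K) (hu : u ∈ Uni n K) (hv : v ∈ V1 n K) :
    u * v * u⁻¹ ∈ V1 n K := by
  have hw : u * v * u⁻¹ ∈ Uni n K :=
    (Uni n K).mul_mem ((Uni n K).mul_mem hu (V1_le_Uni hv)) ((Uni n K).inv_mem hu)
  rw [mem_V1']
  refine ⟨fun i j hij hi => ?_, ((mem_Uni' _).1 hw).2⟩
  have hrow : ∀ k, ((u * v : SpecialLinearGroup (Fin n) K) : Matrix (Fin n) (Fin n) K) i k
      = (u : Matrix (Fin n) (Fin n) K) i k := by
    intro k
    rw [Matrix.SpecialLinearGroup.coe_mul, Matrix.mul_apply]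
    rw [Finset.sum_eq_single k]
    · rw [((mem_V1' v).1 hv).2 k, mul_one]
    · intro l _ hlk
      by_cases hl : l.val = 0
      · have h0 : (u : Matrix (Fin n) (Fin n) K) i l = 0 := ((mem_Uni' u).1 hu).1 i l (by
          show l.val < i.val
          omega)
        rw [h0, zero_mul]
      · rw [((mem_V1' v).1 hv).1 l k hlk hl, mul_zero]
    · intro h
      exact absurd (Finset.mem_univ k) h
  have h1 : ((u * v * u⁻¹ : SpecialLinearGroup (Fin n) K) : Matrix (Fin n) (Fin n) K) i j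
      = ((u * u⁻¹ : SpecialLinearGroup (Fin n) K) : Matrix (Fin n) (Fin n) K) i j := by
    rw [Matrix.SpecialLinearGroup.coe_mul, Matrix.mul_apply, Matrix.SpecialLinearGroup.coe_mul u u⁻¹,
      Matrix.mul_apply]
    exact Finset.sum_congr rfl (fun k _ => by rw [hrow k])
  rw [h1, mul_inv_cancel, Matrix.SpecialLinearGroup.coe_one, Matrix.one_apply_ne hij]

theorem V1_comm (a b : SpecialLinearGroup (Fin n) K) (ha : a ∈ V1 n K) (hb : b ∈ V1 n K) :
    a * b = b * a := by
  have key : ∀ a b : SpecialLinearGroup (Fin n) K, a ∈ V1 n K → b ∈ V1 n K → ∀ i j : Fin n,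
      i ≠ j → ((a * b : SpecialLinearGroup (Fin n) K) : Matrix (Fin n) (Fin n) K) i j
        = (if i.val = 0 then (a : Matrix (Fin n) (Fin n) K) i j
            + (b : Matrix (Fin n) (Fin n) K) i j else 0) := by
    intro a b ha hb i j hij
    rw [mem_V1'] at ha hb
    rw [Matrix.SpecialLinearGroup.coe_mul, Matrix.mul_apply]
    by_cases hi : i.val = 0
    · rw [if_pos hi]
      rw [Finset.sum_eq_add i j hij]
      · rw [ha.2 i, hb.2 j, one_mul, mul_one, add_comm]
      · rintro c - ⟨hci, hcj⟩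
        have hc : c.val ≠ 0 := fun h => hci (Fin.ext (h.trans hi.symm))
        rw [hb.1 c j hcj hc, mul_zero]
      · intro h
        exact absurd (Finset.mem_univ i) h
      · intro h
        exact absurd (Finset.mem_univ j) h
    · rw [if_neg hi]
      apply Finset.sum_eq_zero
      intro k _
      by_cases hik : i = k
      · subst hik
        rw [hb.1 i j hij hi, mul_zero]
      · rw [ha.1 i k hik hi, zero_mul]
  apply Matrix.SpecialLinearGroup.ext
  intro i j
  show ((a * b : SpecialLinearGroup (Fin n) K) : Matrix (Fin n) (Fin n) K) i j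
    = ((b * a : SpecialLinearGroup (Fin n) K) : Matrix (Fin n) (Fin n) K) i j
  by_cases hij : i = j
  · subst hij
    rw [((mem_V1' _).1 ((V1 n K).mul_mem ha hb)).2 i,
      ((mem_V1' _).1 ((V1 n K).mul_mem hb ha)).2 i]
  · rw [key a b ha hb i j hij, key b a hb ha i j hij]
    split_ifs
    · exact add_comm _ _
    · rfl

theorem main : Cfsg.Agent.H84.PslStmt.R1Basic.{u} := by
  intro n K _ _ p _ _
  refine ⟨Subgroup.map_mono V1_le_Uni, ?_, ?_⟩
  · rintro s ⟨u, hu, rfl⟩ r ⟨v, hv, rfl⟩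
    exact ⟨u * v * u⁻¹, conj_mem_V1 u v hu hv, by rw [map_mul, map_mul, map_inv]⟩
  · rintro a ⟨v, hv, rfl⟩ b ⟨v', hv', rfl⟩
    rw [← map_mul, ← map_mul, V1_comm v v' hv hv']

end Cfsg.Agent.Lib.Helper14.PslP5a
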