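import Mathlib
import Cfsg.Agent.H84.PslStmt

/-!
# Piece P6a of S5163 (helper84, board post 1767): `R2Basic`

`R2` (image of "identity plus last column") is an abelian subgroup of `Ubar` normalized by `Ubar`.
-/

set_option autoImplicit false

namespace Cfsg.Agent.Lib.Helper14.PslP6a

open Cfsg.Agent.H84.PslDefs Matrix

universe u

variable {n : ℕ} {K : Type u} [Field K]

/-- matrix form of `mem_Uni` -/
theorem mem_Uni' (g : SpecialLinearGroup (Fin n) K) :
    g ∈ Uni n K ↔ (∀ i j : Fin n, j < i → (g : Matrix (Fin n) (Fin n) K) i j = 0) ∧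
      ∀ i, (g : Matrix (Fin n) (Fin n) K) i i = 1 := mem_Uni n K g

/-- matrix form of `mem_V2` -/
theorem mem_V2' (g : SpecialLinearGroup (Fin n) K) :
    g ∈ V2 n K ↔
      (∀ i j : Fin n, i ≠ j → j.val + 1 ≠ n → (g : Matrix (Fin n) (Fin n) K) i j = 0) ∧
      ∀ i, (g : Matrix (Fin n) (Fin n) K) i i = 1 := mem_V2 n K g

theorem V2_le_Uni : V2 n K ≤ Uni n K := by
  intro g hg
  rw [mem_V2'] at hg
  rw [mem_Uni']
  refine ⟨fun i j hji => hg.1 i j (ne_of_gt hji) ?_, hg.2⟩
  have h1 : j.val < i.val := hji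
  have h2 := i.isLt
  omega

theorem conj_mem_V2 (u v : SpecialLinearGroup (Fin n) K) (hu : u ∈ Uni n K) (hv : v ∈ V2 n K) :
    u * v * u⁻¹ ∈ V2 n K := by
  have hw : u * v * u⁻¹ ∈ Uni n K :=
    (Uni n K).mul_mem ((Uni n K).mul_mem hu (V2_le_Uni hv)) ((Uni n K).inv_mem hu)
  have hu' : u⁻¹ ∈ Uni n K := (Uni n K).inv_mem hu
  rw [mem_V2']
  refine ⟨fun i j hij hj => ?_, ((mem_Uni' _).1 hw).2⟩
  have hcol : ∀ k, ((v * u⁻¹ : SpecialLinearGroup (Fin n) K) : Matrix (Fin n) (Fin n) K) k j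
      = (u⁻¹ : SpecialLinearGroup (Fin n) K).1 k j := by
    intro k
    rw [Matrix.SpecialLinearGroup.coe_mul, Matrix.mul_apply]
    rw [Finset.sum_eq_single k]
    · rw [((mem_V2' v).1 hv).2 k, one_mul]
    · intro l _ hlk
      by_cases hl : l.val + 1 = n
      · have h0 : (u⁻¹ : SpecialLinearGroup (Fin n) K).1 l j = 0 :=
          ((mem_Uni' u⁻¹).1 hu').1 l j (by
            show j.val < l.val
            have := j.isLt
            omega)
        rw [h0, mul_zero]
      · rw [((mem_V2' v).1 hv).1 k l (Ne.symm hlk) hl, zero_mul]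
    · intro h
      exact absurd (Finset.mem_univ k) h
  have h1 : ((u * v * u⁻¹ : SpecialLinearGroup (Fin n) K) : Matrix (Fin n) (Fin n) K) i j
      = ((u * u⁻¹ : SpecialLinearGroup (Fin n) K) : Matrix (Fin n) (Fin n) K) i j := by
    rw [mul_assoc, Matrix.SpecialLinearGroup.coe_mul, Matrix.mul_apply,
      Matrix.SpecialLinearGroup.coe_mul u u⁻¹, Matrix.mul_apply]
    exact Finset.sum_congr rfl (fun k _ => by rw [hcol k])
  rw [h1, mul_inv_cancel, Matrix.SpecialLinearGroup.coe_one, Matrix.one_apply_ne hij]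

theorem V2_comm (a b : SpecialLinearGroup (Fin n) K) (ha : a ∈ V2 n K) (hb : b ∈ V2 n K) :
    a * b = b * a := by
  have key : ∀ a b : SpecialLinearGroup (Fin n) K, a ∈ V2 n K → b ∈ V2 n K → ∀ i j : Fin n,
      i ≠ j → ((a * b : SpecialLinearGroup (Fin n) K) : Matrix (Fin n) (Fin n) K) i j
        = (if j.val + 1 = n then (a : Matrix (Fin n) (Fin n) K) i j
            + (b : Matrix (Fin n) (Fin n) K) i j else 0) := by
    intro a b ha hb i j hij
    rw [mem_V2'] at ha hb
    rw [Matrix.SpecialLinearGroup.coe_mul, Matrix.mul_apply]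
    by_cases hj : j.val + 1 = n
    · rw [if_pos hj]
      rw [Finset.sum_eq_add i j hij]
      · rw [ha.2 i, hb.2 j, one_mul, mul_one, add_comm]
      · rintro c - ⟨hci, hcj⟩
        have hc : c.val + 1 ≠ n := fun h => hcj (Fin.ext (by omega))
        rw [ha.1 i c (Ne.symm hci) hc, zero_mul]
      · intro h
        exact absurd (Finset.mem_univ i) h
      · intro h
        exact absurd (Finset.mem_univ j) h
    · rw [if_neg hj]
      apply Finset.sum_eq_zero
      intro k _
      by_cases hkj : k = j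
      · subst hkj
        rw [ha.1 i k hij hj, zero_mul]
      · rw [hb.1 k j hkj hj, mul_zero]
  apply Matrix.SpecialLinearGroup.ext
  intro i j
  show ((a * b : SpecialLinearGroup (Fin n) K) : Matrix (Fin n) (Fin n) K) i j
    = ((b * a : SpecialLinearGroup (Fin n) K) : Matrix (Fin n) (Fin n) K) i j
  by_cases hij : i = j
  · subst hij
    rw [((mem_V2' _).1 ((V2 n K).mul_mem ha hb)).2 i,
      ((mem_V2' _).1 ((V2 n K).mul_mem hb ha)).2 i]
  · rw [key a b ha hb i j hij, key b a hb ha i j hij]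
    split_ifs
    · exact add_comm _ _
    · rfl

theorem main : Cfsg.Agent.H84.PslStmt.R2Basic.{u} := by
  intro n K _ _ p _ _
  refine ⟨Subgroup.map_mono V2_le_Uni, ?_, ?_⟩
  · rintro s ⟨u, hu, rfl⟩ r ⟨v, hv, rfl⟩
    exact ⟨u * v * u⁻¹, conj_mem_V2 u v hu hv, by rw [map_mul, map_mul, map_inv]⟩
  · rintro a ⟨v, hv, rfl⟩ b ⟨v', hv', rfl⟩
    rw [← map_mul, ← map_mul, V2_comm v v' hv hv']

end Cfsg.Agent.Lib.Helper14.PslP6a
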