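import Mathlib

set_option autoImplicit false

namespace Cfsg.Agent.Lib.Helper14.HHG3

/-- A nontrivial normal subgroup of a finite `p`-group meets the centre nontrivially. -/
theorem center_meets_normal {G : Type*} [Group G] [Finite G] {p : ℕ} [Fact p.Prime]
    (hG : IsPGroup p G) (N : Subgroup G) [N.Normal] (hN : N ≠ ⊥) :
    ∃ x ∈ N, x ≠ 1 ∧ x ∈ Subgroup.center G := by
  classical
  have hG' : IsPGroup p (ConjAct G) := hG
  have hNp : IsPGroup p N := hG.to_subgroup N
  have hcard : p ∣ Nat.card N := by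
    rcases hNp.card_eq_or_dvd with h | h
    · exfalso
      apply hN
      exact Subgroup.card_eq_one.mp h
    · exact h
  have h1 : (1 : N) ∈ MulAction.fixedPoints (ConjAct G) N := by
    intro g
    exact smul_one g
  obtain ⟨b, hb, hb1⟩ := hG'.exists_fixed_point_of_prime_dvd_card_of_fixed_point N hcard h1
  refine ⟨b, b.2, ?_, ?_⟩
  · intro h
    apply hb1
    exact Subtype.ext h.symm
  · rw [Subgroup.mem_center_iff]
    intro g
    have := hb (ConjAct.toConjAct g)
    have h2 := congrArg Subtype.val this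
    rw [ConjAct.Subgroup.val_conj_smul, ConjAct.toConjAct_smul] at h2
    rw [mul_inv_eq_iff_eq_mul] at h2
    exact h2

/-- A normal subgroup `A` of a `p`-group `B` acting nontrivially (by conjugation) on `T`
contains an element acting nontrivially all of whose `B`-conjugates act in the same way. -/
theorem exists_central_act {G : Type*} [Group G] (p : ℕ) [Fact p.Prime]
    (A B T : Subgroup G) [Finite B] (hB : IsPGroup p B) (hAB : A ≤ B)
    (hAn : ∀ b ∈ B, ∀ a ∈ A, b * a * b⁻¹ ∈ A)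
    (hBT : ∀ b ∈ B, ∀ t ∈ T, b * t * b⁻¹ ∈ T)
    (hnc : ∃ a ∈ A, ∃ t ∈ T, a * t * a⁻¹ ≠ t) :
    ∃ a ∈ A, (∃ t ∈ T, a * t * a⁻¹ ≠ t) ∧
      ∀ b ∈ B, ∀ t ∈ T, (b * a * b⁻¹) * t * (b * a * b⁻¹)⁻¹ = a * t * a⁻¹ := by
  classical
  -- the elements acting trivially on `T`
  let Z : Subgroup G := Subgroup.centralizer (T : Set G)
  have hmemZ : ∀ g : G, g ∈ Z ↔ ∀ t ∈ T, g * t * g⁻¹ = t := by
    intro g
    show g ∈ Subgroup.centralizer (T : Set G) ↔ _
    rw [Subgroup.mem_centralizer_iff]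
    constructor
    · intro h t ht
      have h1 : t * g = g * t := h t ht
      rw [← h1]; group
    · intro h t ht
      have h1 := h t ht
      calc t * g = (g * t * g⁻¹) * g := by rw [h1]
        _ = g * t := by group
  let ZB : Subgroup B := Z.subgroupOf B
  have hZBn : ZB.Normal := by
    constructor
    intro z hz b
    have hz' : (z : G) ∈ Z := Subgroup.mem_subgroupOf.mp hz
    rw [hmemZ] at hz'
    apply Subgroup.mem_subgroupOf.mpr
    rw [hmemZ]
    intro t ht
    have h1 : (b : G)⁻¹ * t * (b : G) ∈ T := by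
      have h2 := hBT ((b : G)⁻¹) (B.inv_mem b.2) t ht
      simpa using h2
    have h2 := hz' _ h1
    show ((b * z * b⁻¹ : B) : G) * t * ((b * z * b⁻¹ : B) : G)⁻¹ = t
    push_cast
    calc (b : G) * z * (b : G)⁻¹ * t * ((b : G) * z * (b : G)⁻¹)⁻¹
        = (b : G) * ((z : G) * ((b : G)⁻¹ * t * (b : G)) * (z : G)⁻¹) * (b : G)⁻¹ := by group
      _ = t := by rw [h2]; group
  -- the quotient `B / C_B(T)` is a finite `p`-group
  let Q := B ⧸ ZB
  have hQ : IsPGroup p Q := hB.to_quotient ZB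
  let π : B →* Q := QuotientGroup.mk' ZB
  have hπ : ∀ x y : B, π x = π y ↔ ((x : G)⁻¹ * (y : G)) ∈ Z := by
    intro x y
    show (QuotientGroup.mk x : Q) = QuotientGroup.mk y ↔ _
    rw [QuotientGroup.eq]
    show (x⁻¹ * y) ∈ Z.subgroupOf B ↔ _
    rw [Subgroup.mem_subgroupOf]
    push_cast
    rfl
  -- the image of `A`
  let N : Subgroup Q := (A.subgroupOf B).map π
  have hNn : N.Normal := by
    haveI : (A.subgroupOf B).Normal := by
      constructor
      intro a ha b
      apply Subgroup.mem_subgroupOf.mpr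
      have ha' : (a : G) ∈ A := Subgroup.mem_subgroupOf.mp ha
      have := hAn b b.2 a ha'
      simpa using this
    exact Subgroup.Normal.map inferInstance π (QuotientGroup.mk'_surjective ZB)
  have hN : N ≠ ⊥ := by
    obtain ⟨a, ha, t, ht, hat⟩ := hnc
    intro hbot
    have hmem : π ⟨a, hAB ha⟩ ∈ N :=
      Subgroup.mem_map_of_mem π (Subgroup.mem_subgroupOf.mpr ha)
    rw [hbot, Subgroup.mem_bot] at hmem
    have h1 : π (1 : B) = π ⟨a, hAB ha⟩ := by rw [map_one, hmem]
    rw [hπ] at h1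
    have h2 : a ∈ Z := by simpa using h1
    exact hat ((hmemZ a).mp h2 t ht)
  obtain ⟨x, hxN, hx1, hxc⟩ := center_meets_normal hQ N hN
  obtain ⟨a, haA, rfl⟩ := Subgroup.mem_map.mp hxN
  have haA' : (a : G) ∈ A := Subgroup.mem_subgroupOf.mp haA
  refine ⟨a, haA', ?_, ?_⟩
  · -- `a` acts nontrivially
    by_contra hcon
    push Not at hcon
    apply hx1
    have h1 : (a : G) ∈ Z := (hmemZ a).mpr hcon
    have h2 : π (1 : B) = π a := by
      rw [hπ]; simpa using h1
    rw [← h2, map_one]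
  · intro b hb t ht
    have hcomm := Subgroup.mem_center_iff.mp hxc (π ⟨b, hb⟩)
    -- π b * π a = π a * π b
    have h1 : π (a * ⟨b, hb⟩) = π (⟨b, hb⟩ * a) := by
      rw [map_mul, map_mul]; exact hcomm.symm
    rw [hπ] at h1
    have h2 : ((a : G) * b)⁻¹ * (b * (a : G)) ∈ Z := by simpa using h1
    -- so a⁻¹ (b a b⁻¹) centralizes ... rewrite
    have h3 : ∀ s ∈ T, (((a : G) * b)⁻¹ * (b * (a : G))) * s * (((a : G) * b)⁻¹ * (b * (a : G)))⁻¹ = s :=
      (hmemZ _).mp h2
    have hs : b⁻¹ * t * b ∈ T := by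
      have := hBT b⁻¹ (B.inv_mem hb) t ht
      simpa using this
    have h4 := h3 _ hs
    calc b * (a : G) * b⁻¹ * t * (b * (a : G) * b⁻¹)⁻¹
        = (a : G) * b * ((((a : G) * b)⁻¹ * (b * (a : G))) * (b⁻¹ * t * b) *
            (((a : G) * b)⁻¹ * (b * (a : G)))⁻¹) * ((a : G) * b)⁻¹ := by group
      _ = (a : G) * t * (a : G)⁻¹ := by rw [h4]; group

end Cfsg.Agent.Lib.Helper14.HHG3
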