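import Mathlib

/-!
# Norm arguments for coprime actions on abelian groups

Shared tools for the pieces PF / PL of S1421 (helper55, board post 1691): the conjugation action
of the normalizer, the norm `∏_{t<q} γ^t a`, and the abstract versions of the two statements.
-/

set_option autoImplicit false

namespace Cfsg.Agent.Lib.Helper14.BG12Norm

section conj

variable {Γ : Type*} [Group Γ]

/-- the conjugation action of the normalizer of `W` on `W` -/
def conjN (W : Subgroup Γ) : ↥(Subgroup.normalizer (W : Set Γ)) →* MulAut ↥W where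
  toFun n :=
    { toFun := fun w => ⟨(n : Γ) * w * (n : Γ)⁻¹, (Subgroup.mem_normalizer_iff.1 n.2 w).1 w.2⟩
      invFun := fun w => ⟨(n : Γ)⁻¹ * w * (n : Γ), by
        have h := (Subgroup.mem_normalizer_iff.1 (Subgroup.inv_mem _ n.2) (w : Γ)).1 w.2
        rwa [inv_inv] at h⟩
      left_inv := fun w => Subtype.ext (by
        show (n : Γ)⁻¹ * ((n : Γ) * w * (n : Γ)⁻¹) * (n : Γ) = w
        group)
      right_inv := fun w => Subtype.ext (by
        show (n : Γ) * ((n : Γ)⁻¹ * w * (n : Γ)) * (n : Γ)⁻¹ = w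
        group)
      map_mul' := fun w w' => Subtype.ext (by
        show (n : Γ) * ((w : Γ) * w') * (n : Γ)⁻¹
          = ((n : Γ) * w * (n : Γ)⁻¹) * ((n : Γ) * w' * (n : Γ)⁻¹)
        group) }
  map_one' := by
    apply MulEquiv.ext
    intro w
    apply Subtype.ext
    show ((1 : ↥(Subgroup.normalizer (W : Set Γ))) : Γ) * w
      * ((1 : ↥(Subgroup.normalizer (W : Set Γ))) : Γ)⁻¹ = w
    rw [Subgroup.coe_one]; group
  map_mul' n n' := by
    apply MulEquiv.ext
    intro w
    apply Subtype.ext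
    show ((n * n' : ↥(Subgroup.normalizer (W : Set Γ))) : Γ) * w
      * ((n * n' : ↥(Subgroup.normalizer (W : Set Γ))) : Γ)⁻¹
      = (n : Γ) * ((n' : Γ) * w * (n' : Γ)⁻¹) * (n : Γ)⁻¹
    rw [Subgroup.coe_mul]; group

lemma conjN_coe (W : Subgroup Γ) (n : ↥(Subgroup.normalizer (W : Set Γ))) (w : W) :
    ((conjN W n w : W) : Γ) = (n : Γ) * w * (n : Γ)⁻¹ := rfl

lemma conjN_eq_iff (W : Subgroup Γ) (n : ↥(Subgroup.normalizer (W : Set Γ))) (w : W) :
    conjN W n w = w ↔ (n : Γ) * w = w * n := by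
  constructor
  · intro h
    have h1 := congrArg Subtype.val h
    rw [conjN_coe] at h1
    calc (n : Γ) * w = ((n : Γ) * w * (n : Γ)⁻¹) * n := by group
      _ = w * n := by rw [h1]
  · intro h
    apply Subtype.ext
    rw [conjN_coe, h]; group

end conj

section norm

variable {A : Type*} [CommGroup A]

/-- the norm of a fixed-point-free automorphism of exponent `q` is trivial -/
lemma norm_eq_one (γ : MulAut A) {q : ℕ} (hγ : γ ^ q = 1) (hfix : ∀ a : A, γ a = a → a = 1)
    (a : A) : ∏ t ∈ Finset.range q, (γ ^ t) a = 1 := by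
  apply hfix
  rw [map_prod]
  have h0 : ∀ t : ℕ, γ ((γ ^ t) a) = (γ ^ (t + 1)) a := by
    intro t
    rw [pow_succ']
    rfl
  simp_rw [h0]
  have h3 := Finset.prod_range_succ (fun t => (γ ^ t) a) q
  have h4 := Finset.prod_range_succ' (fun t => (γ ^ t) a) q
  rw [h3] at h4
  simp only [hγ, pow_zero] at h4
  exact (mul_right_cancel h4).symm

/-- an element killed by two coprime exponents is trivial -/
lemma eq_one_of_pow_coprime [Finite A] {n : ℕ} (hcop : (Nat.card A).Coprime n) (a : A)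
    (ha : a ^ n = 1) : a = 1 := by
  have d1 : orderOf a ∣ Nat.card A := orderOf_dvd_natCard a
  have d2 := orderOf_dvd_of_pow_eq_one ha
  have d3 := Nat.dvd_gcd d1 d2
  rw [Nat.Coprime.gcd_eq_one hcop] at d3
  exact orderOf_eq_one_iff.1 (Nat.dvd_one.1 d3)

/-- **Rank two coprime action**: if `β`, `ε` are commuting automorphisms of exponent `q` of an
abelian `q'`-group and none of `ε`, `β ε^j` has a nontrivial fixed point, the group is trivial. -/
theorem rank_two_abs [Finite A] (β ε : MulAut A) (hc : β * ε = ε * β) {q : ℕ} (hq : q.Prime)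
    (hcop : (Nat.card A).Coprime q) (hβ : β ^ q = 1) (hε : ε ^ q = 1)
    (h1 : ∀ a : A, ε a = a → a = 1) (h2 : ∀ j : ℕ, ∀ a : A, (β * ε ^ j) a = a → a = 1) :
    ∀ a : A, a = 1 := by
  intro a
  have hcomm : Commute β ε := hc
  have hν := norm_eq_one ε hε h1
  have hpow : ∀ j t : ℕ, (β * ε ^ j) ^ t = β ^ t * ε ^ (j * t) := by
    intro j t
    rw [(hcomm.pow_right j).mul_pow, ← pow_mul]
  have hνj : ∀ j : ℕ, ∀ a : A, ∏ t ∈ Finset.range q, ((β * ε ^ j) ^ t) a = 1 := by
    intro j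
    apply norm_eq_one (β * ε ^ j) _ (h2 j)
    rw [hpow, hβ, mul_comm j q, pow_mul, hε, one_pow, one_mul]
  have hdouble : ∏ j ∈ Finset.range q, ∏ t ∈ Finset.range q, ((β * ε ^ j) ^ t) a = 1 :=
    Finset.prod_eq_one (fun j _ => hνj j a)
  rw [Finset.prod_comm] at hdouble
  -- the inner products for `t ≠ 0`
  have hinner : ∀ t : ℕ, 0 < t → t < q →
      ∏ j ∈ Finset.range q, ((β * ε ^ j) ^ t) a = 1 := by
    intro t ht0 htq
    have e1 : ∀ j ∈ Finset.range q, ((β * ε ^ j) ^ t) a = (β ^ t) ((ε ^ ((j * t) % q)) a) := by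
      intro j _
      rw [hpow, pow_eq_pow_mod (j * t) hε]
      rfl
    rw [Finset.prod_congr rfl e1, ← map_prod]
    have hcop' : Nat.Coprime q t :=
      (Nat.Prime.coprime_iff_not_dvd hq).2 (Nat.not_dvd_of_pos_of_lt ht0 htq)
    have hinj : Set.InjOn (fun j : ℕ => (j * t) % q) (Finset.range q : Set ℕ) := by
      intro j hj j' hj' h
      have hj1 : j < q := Finset.mem_range.1 hj
      have hj2 : j' < q := Finset.mem_range.1 hj'
      have h' : j * t ≡ j' * t [MOD q] := h
      have h'' : j ≡ j' [MOD q] := Nat.ModEq.cancel_right_of_coprime hcop' h'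
      exact Nat.ModEq.eq_of_lt_of_lt h'' hj1 hj2
    have himg : (Finset.range q).image (fun j : ℕ => (j * t) % q) = Finset.range q := by
      apply Finset.eq_of_subset_of_card_le
      · intro m hm
        obtain ⟨j, -, rfl⟩ := Finset.mem_image.1 hm
        exact Finset.mem_range.2 (Nat.mod_lt _ hq.pos)
      · rw [Finset.card_image_of_injOn hinj]
    have e2 : ∏ j ∈ Finset.range q, (ε ^ ((j * t) % q)) a
        = ∏ m ∈ Finset.range q, (ε ^ m) a := by
      conv_rhs => rw [← himg]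
      rw [Finset.prod_image hinj]
    rw [e2, hν a, map_one]
  obtain ⟨q', rfl⟩ : ∃ q', q = q' + 1 := ⟨q - 1, by have := hq.pos; omega⟩
  rw [Finset.prod_range_succ'] at hdouble
  have e3 : ∏ t ∈ Finset.range q', ∏ j ∈ Finset.range (q' + 1), ((β * ε ^ j) ^ (t + 1)) a = 1 :=
    Finset.prod_eq_one (fun t ht =>
      hinner (t + 1) (Nat.succ_pos t) (Nat.succ_lt_succ (Finset.mem_range.1 ht)))
  rw [e3, one_mul] at hdouble
  simp only [pow_zero, MulAut.one_apply, Finset.prod_const, Finset.card_range] at hdouble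
  exact eq_one_of_pow_coprime hcop a hdouble

/-- **Frobenius action**: `B ⋊ ⟨e⟩` a Frobenius group (`B` finite, `e` of prime order `r` acting
fixed-point-freely on `B`) acting on an abelian group `A` of order prime to `|B|`, with `e`
fixed-point-free on `A`. If `B` has no nontrivial fixed point on `A` then `A` is trivial. -/
theorem frob_abs [Finite A] {N : Type*} [Group N] (φ : N →* MulAut A) (B : Subgroup N)
    [Finite B] (e : N) {r : ℕ} (hr : r.Prime) (he : e ^ r = 1)
    (heB : e ∈ Subgroup.normalizer (B : Set N))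
    (hcop : (Nat.card A).Coprime (Nat.card B))
    (hBe : ∀ b ∈ B, e * b = b * e → b = 1) (hAe : ∀ a : A, φ e a = a → a = 1)
    (hAB : ∀ a : A, (∀ b ∈ B, φ b a = a) → a = 1) : ∀ a : A, a = 1 := by
  classical
  let _ : Fintype B := Fintype.ofFinite B
  -- the trace over `B`
  have hT : ∀ u : A, ∏ b : B, φ (b : N) u = 1 := by
    intro u
    apply hAB
    intro c hc
    rw [map_prod]
    have e1 : ∀ b : B, φ c (φ (b : N) u) = φ (((⟨c, hc⟩ : B) * b : B) : N) u := by
      intro b
      rw [Subgroup.coe_mul, map_mul]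
      rfl
    simp_rw [e1]
    exact Fintype.prod_equiv (Equiv.mulLeft (⟨c, hc⟩ : B)) _ _ (fun b => rfl)
  have hφe : (φ e) ^ r = 1 := by rw [← map_pow, he, map_one]
  have hν := norm_eq_one (φ e) hφe hAe
  intro v
  have hνx : ∀ x : B, ∏ t ∈ Finset.range r, φ ((x : N) * e ^ t * (x : N)⁻¹) v = 1 := by
    intro x
    have e1 : ∀ t ∈ Finset.range r, φ ((x : N) * e ^ t * (x : N)⁻¹) v
        = φ (x : N) (((φ e) ^ t) (φ ((x : N)⁻¹) v)) := by
      intro t _
      rw [map_mul, map_mul, map_pow]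
      rfl
    rw [Finset.prod_congr rfl e1, ← map_prod, hν, map_one]
  have hdouble : ∏ x : B, ∏ t ∈ Finset.range r, φ ((x : N) * e ^ t * (x : N)⁻¹) v = 1 :=
    Finset.prod_eq_one (fun x _ => hνx x)
  rw [Finset.prod_comm] at hdouble
  have hinner : ∀ t : ℕ, 0 < t → t < r →
      ∏ x : B, φ ((x : N) * e ^ t * (x : N)⁻¹) v = 1 := by
    intro t ht0 htr
    have hetB : e ^ t ∈ Subgroup.normalizer (B : Set N) := Subgroup.pow_mem _ heB t
    -- the map `x ↦ x e^t x⁻¹ e^-t` of `B`
    have hmem : ∀ x : B, (x : N) * e ^ t * (x : N)⁻¹ * (e ^ t)⁻¹ ∈ B := by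
      intro x
      have h1 : e ^ t * (x : N)⁻¹ * (e ^ t)⁻¹ ∈ B :=
        (Subgroup.mem_normalizer_iff.1 hetB _).1 (B.inv_mem x.2)
      have h2 : (x : N) * e ^ t * (x : N)⁻¹ * (e ^ t)⁻¹
          = (x : N) * (e ^ t * (x : N)⁻¹ * (e ^ t)⁻¹) := by group
      rw [h2]
      exact B.mul_mem x.2 h1
    let c : B → B := fun x => ⟨(x : N) * e ^ t * (x : N)⁻¹ * (e ^ t)⁻¹, hmem x⟩
    have hcop' : Nat.Coprime t r :=
      ((Nat.Prime.coprime_iff_not_dvd hr).2 (Nat.not_dvd_of_pos_of_lt ht0 htr)).symm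
    have hcinj : Function.Injective c := by
      intro x y hxy
      have h1 : (x : N) * e ^ t * (x : N)⁻¹ * (e ^ t)⁻¹ = (y : N) * e ^ t * (y : N)⁻¹ * (e ^ t)⁻¹ :=
        congrArg Subtype.val hxy
      have h2 : (x : N) * e ^ t * (x : N)⁻¹ = (y : N) * e ^ t * (y : N)⁻¹ := mul_right_cancel h1
      have h3 : Commute ((y : N)⁻¹ * x) (e ^ t) := by
        show (y : N)⁻¹ * x * e ^ t = e ^ t * ((y : N)⁻¹ * x)
        calc (y : N)⁻¹ * x * e ^ t = (y : N)⁻¹ * ((x : N) * e ^ t * (x : N)⁻¹) * x := by group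
          _ = (y : N)⁻¹ * ((y : N) * e ^ t * (y : N)⁻¹) * x := by rw [h2]
          _ = e ^ t * ((y : N)⁻¹ * x) := by group
      obtain ⟨m, -, hm⟩ := Nat.exists_mul_mod_eq_one_of_coprime hcop' hr.one_lt
      have h4 : e = (e ^ t) ^ m := by
        rw [← pow_mul, pow_eq_pow_mod (t * m) he, hm, pow_one]
      have h5 : Commute ((y : N)⁻¹ * x) e := by
        rw [h4]
        exact h3.pow_right m
      have h6 : (y : N)⁻¹ * x = 1 := hBe _ (B.mul_mem (B.inv_mem y.2) x.2) h5.eq.symm
      apply Subtype.ext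
      exact (inv_mul_eq_one.1 h6).symm
    have hcbij : Function.Bijective c := Finite.injective_iff_bijective.1 hcinj
    have e1 : ∀ x : B, φ ((x : N) * e ^ t * (x : N)⁻¹) v = φ ((c x : B) : N) (φ (e ^ t) v) := by
      intro x
      have h1 : (x : N) * e ^ t * (x : N)⁻¹ = ((c x : B) : N) * e ^ t := by
        show (x : N) * e ^ t * (x : N)⁻¹ = (x : N) * e ^ t * (x : N)⁻¹ * (e ^ t)⁻¹ * e ^ t
        group
      rw [h1, map_mul]
      rfl
    simp_rw [e1]
    rw [Fintype.prod_bijective c hcbij (fun x => φ ((c x : B) : N) (φ (e ^ t) v))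
      (fun b => φ (b : N) (φ (e ^ t) v)) (fun x => rfl)]
    exact hT _
  obtain ⟨r', rfl⟩ : ∃ r', r = r' + 1 := ⟨r - 1, by have := hr.pos; omega⟩
  rw [Finset.prod_range_succ'] at hdouble
  have e3 : ∏ t ∈ Finset.range r', ∏ x : B, φ ((x : N) * e ^ (t + 1) * (x : N)⁻¹) v = 1 :=
    Finset.prod_eq_one (fun t ht =>
      hinner (t + 1) (Nat.succ_pos t) (Nat.succ_lt_succ (Finset.mem_range.1 ht)))
  rw [e3, one_mul] at hdouble
  simp only [pow_zero, mul_one, mul_inv_cancel, map_one, MulAut.one_apply, Finset.prod_const,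
    Finset.card_univ] at hdouble
  rw [← Nat.card_eq_fintype_card] at hdouble
  exact eq_one_of_pow_coprime hcop v hdouble

end norm

end Cfsg.Agent.Lib.Helper14.BG12Norm
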