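import Mathlib
import Cfsg.Agent.Lib.Helper14.BG12Norm

/-!
# Piece PF of S1421 (helper55, board post 1691): `frob_fix`

A Frobenius group `B ⋊ ⟨e⟩` acting coprimely on an abelian group `W ≠ 1` with `e`
fixed-point-free: `B` has a nontrivial fixed point on `W`.
-/

set_option autoImplicit false

namespace Cfsg.Agent.Lib.Helper14.BG12PF

open Cfsg.Agent.Lib.Helper14.BG12Norm
open scoped IsMulCommutative

theorem frob_fix {Γ : Type*} [Group Γ] [Finite Γ] (B W : Subgroup Γ) (e : Γ) {r : ℕ}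
    (hr : r.Prime) (he : orderOf e = r)
    (hBc : ∀ a ∈ B, ∀ b ∈ B, a * b = b * a) (hWc : ∀ a ∈ W, ∀ b ∈ W, a * b = b * a)
    (hBW : B ≤ Subgroup.normalizer (W : Set Γ)) (heW : e ∈ Subgroup.normalizer (W : Set Γ))
    (heB : e ∈ Subgroup.normalizer (B : Set Γ))
    (hcop : (Nat.card B).Coprime (Nat.card W))
    (hBe : ∀ b ∈ B, e * b = b * e → b = 1) (hWe : ∀ w ∈ W, e * w = w * e → w = 1)
    (hW : W ≠ ⊥) : ∃ w ∈ W, w ≠ 1 ∧ ∀ b ∈ B, b * w = w * b := by
  by_contra hcon
  have hcomm : IsMulCommutative W := ⟨⟨fun x y => Subtype.ext (hWc x x.2 y y.2)⟩⟩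
  have hcard : Nat.card (B.subgroupOf (Subgroup.normalizer (W : Set Γ))) = Nat.card B :=
    Nat.card_congr (Subgroup.subgroupOfEquivOfLe hBW).toEquiv
  have key : ∀ a : W, a = 1 := by
    refine frob_abs (A := W) (conjN W) (B.subgroupOf (Subgroup.normalizer (W : Set Γ)))
      (⟨e, heW⟩ : ↥(Subgroup.normalizer (W : Set Γ))) hr ?_ ?_ ?_ ?_ ?_ ?_
    · apply Subtype.ext
      rw [Subgroup.coe_pow, Subgroup.coe_one, ← he]
      exact pow_orderOf_eq_one e
    · rw [Subgroup.mem_normalizer_iff]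
      intro h
      rw [Subgroup.mem_subgroupOf, Subgroup.mem_subgroupOf]
      exact Subgroup.mem_normalizer_iff.1 heB (h : Γ)
    · rw [hcard]
      exact hcop.symm
    · intro b hb hcomm'
      apply Subtype.ext
      rw [Subgroup.mem_subgroupOf] at hb
      exact hBe (b : Γ) hb (congrArg Subtype.val hcomm')
    · intro a ha
      apply Subtype.ext
      exact hWe (a : Γ) a.2 ((conjN_eq_iff W _ a).1 ha)
    · intro a ha
      by_contra hne1
      apply hcon
      refine ⟨a, a.2, fun h => hne1 (Subtype.ext h), fun b hb => ?_⟩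
      exact (conjN_eq_iff W ⟨b, hBW hb⟩ a).1 (ha ⟨b, hBW hb⟩ (Subgroup.mem_subgroupOf.2 hb))
  apply hW
  rw [Subgroup.eq_bot_iff_forall]
  intro x hx
  exact congrArg Subtype.val (key ⟨x, hx⟩)

end Cfsg.Agent.Lib.Helper14.BG12PF
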