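import Mathlib
import Cfsg.Agent.Lib.Helper14.BG12Norm

/-!
# Piece PL of S1421 (helper55, board post 1691): `rank_two`

Two commuting elements inducing automorphisms of exponent `q` on an abelian `q'`-group `A ≠ 1`:
one of `e`, `b e^j` has a nontrivial fixed point on `A`.
-/

set_option autoImplicit false

namespace Cfsg.Agent.Lib.Helper14.BG12PL

open Cfsg.Agent.Lib.Helper14.BG12Norm
open scoped IsMulCommutative

theorem rank_two {Γ : Type*} [Group Γ] [Finite Γ] (A : Subgroup Γ)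
    (hAc : ∀ a ∈ A, ∀ b ∈ A, a * b = b * a) (b e : Γ)
    (hb : b ∈ Subgroup.normalizer (A : Set Γ)) (he : e ∈ Subgroup.normalizer (A : Set Γ))
    (hbe : b * e = e * b) {q : ℕ} (hq : q.Prime) (hcop : (Nat.card A).Coprime q)
    (hbq : ∀ a ∈ A, b ^ q * a = a * b ^ q) (heq : ∀ a ∈ A, e ^ q * a = a * e ^ q)
    (hA : A ≠ ⊥) :
    (∃ a ∈ A, a ≠ 1 ∧ e * a = a * e) ∨
      ∃ j : ℕ, ∃ a ∈ A, a ≠ 1 ∧ (b * e ^ j) * a = a * (b * e ^ j) := by
  by_contra hcon
  rw [not_or] at hcon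
  obtain ⟨h1, h2⟩ := hcon
  have hcomm : IsMulCommutative A := ⟨⟨fun x y => Subtype.ext (hAc x x.2 y y.2)⟩⟩
  have hne : ∀ a : A, (a : Γ) ≠ 1 → a ≠ 1 := fun a h h' => h (by rw [h']; rfl)
  have key : ∀ a : A, a = 1 := by
    refine rank_two_abs (A := A) (conjN A ⟨b, hb⟩) (conjN A ⟨e, he⟩) ?_ hq hcop ?_ ?_ ?_ ?_
    · rw [← map_mul, ← map_mul]
      congr 1
      exact Subtype.ext hbe
    · rw [← map_pow]
      apply MulEquiv.ext
      intro a
      exact (conjN_eq_iff A _ a).2 (by simpa using hbq a a.2)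
    · rw [← map_pow]
      apply MulEquiv.ext
      intro a
      exact (conjN_eq_iff A _ a).2 (by simpa using heq a a.2)
    · intro a ha
      by_contra hne1
      exact h1 ⟨a, a.2, fun h => hne1 (Subtype.ext h), (conjN_eq_iff A _ a).1 ha⟩
    · intro j a ha
      by_contra hne1
      rw [← map_pow, ← map_mul] at ha
      exact h2 ⟨j, a, a.2, fun h => hne1 (Subtype.ext h),
        by simpa using (conjN_eq_iff A _ a).1 ha⟩
  apply hA
  rw [Subgroup.eq_bot_iff_forall]
  intro x hx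
  exact congrArg Subtype.val (key ⟨x, hx⟩)

end Cfsg.Agent.Lib.Helper14.BG12PL
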