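import Mathlib

/-!
# Piece PO of S1421 (helper55, board post 1691): `cent_of_cent_omega`

A `p'`-element normalizing an abelian `p`-group `P` and centralizing `Ω₁(P)` centralizes `P`.
-/

set_option autoImplicit false

namespace Cfsg.Agent.Lib.Helper14.BG12PO

theorem cent_of_cent_omega {Γ : Type*} [Group Γ] [Finite Γ] {p : ℕ} [Fact p.Prime]
    (P : Subgroup Γ) (hP : IsPGroup p P) (hPc : ∀ a ∈ P, ∀ b ∈ P, a * b = b * a) (g : Γ)
    (hg : g ∈ Subgroup.normalizer (P : Set Γ)) (hgo : (orderOf g).Coprime p)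
    (h1 : ∀ x ∈ P, x ^ p = 1 → g * x = x * g) : ∀ x ∈ P, g * x = x * g := by
  have key : ∀ k : ℕ, ∀ x ∈ P, x ^ p ^ k = 1 → g * x = x * g := by
    intro k
    induction k with
    | zero =>
      intro x _ hx
      rw [pow_zero, pow_one] at hx
      rw [hx, mul_one, one_mul]
    | succ k ih =>
      intro x hx hxk
      have hxp : g * x ^ p = x ^ p * g :=
        ih (x ^ p) (P.pow_mem hx p) (by rw [← pow_mul, ← pow_succ']; exact hxk)
      have hgx : g * x * g⁻¹ ∈ P := (Subgroup.mem_normalizer_iff.1 hg x).1 hx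
      have huP : x⁻¹ * (g * x * g⁻¹) ∈ P := P.mul_mem (P.inv_mem hx) hgx
      have hup : (x⁻¹ * (g * x * g⁻¹)) ^ p = 1 := by
        have hc : Commute x⁻¹ (g * x * g⁻¹) := hPc _ (P.inv_mem hx) _ hgx
        rw [hc.mul_pow, conj_pow, inv_pow, hxp, mul_assoc, mul_inv_cancel, mul_one,
          inv_mul_cancel]
      have hgu : g * (x⁻¹ * (g * x * g⁻¹)) = (x⁻¹ * (g * x * g⁻¹)) * g := h1 _ huP hup
      obtain ⟨u, hu⟩ : ∃ u, u = x⁻¹ * (g * x * g⁻¹) := ⟨_, rfl⟩
      rw [← hu] at huP hup hgu
      have hgxu : g * x * g⁻¹ = x * u := by rw [hu]; group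
      have hconj : ∀ n : ℕ, g ^ n * x * (g ^ n)⁻¹ = x * u ^ n := by
        intro n
        induction n with
        | zero => simp
        | succ n ihn =>
          have e1 : g ^ (n + 1) * x * (g ^ (n + 1))⁻¹ = g * (g ^ n * x * (g ^ n)⁻¹) * g⁻¹ := by
            rw [pow_succ']; group
          have h2 : g * u ^ n * g⁻¹ = u ^ n := by
            rw [(Commute.pow_right (show Commute g u from hgu) n).eq, mul_assoc, mul_inv_cancel,
              mul_one]
          rw [e1, ihn]
          calc g * (x * u ^ n) * g⁻¹ = (g * x * g⁻¹) * (g * u ^ n * g⁻¹) := by group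
            _ = x * u ^ (n + 1) := by rw [h2, hgxu, pow_succ', mul_assoc]
      have hun : u ^ orderOf g = 1 := by
        have h3 := hconj (orderOf g)
        rw [pow_orderOf_eq_one, one_mul, inv_one, mul_one] at h3
        exact mul_left_cancel (a := x) (by rw [mul_one]; exact h3.symm)
      have hu1 : u = 1 := by
        have d1 := orderOf_dvd_of_pow_eq_one hun
        have d2 := orderOf_dvd_of_pow_eq_one hup
        have d3 := Nat.dvd_gcd d1 d2
        rw [Nat.Coprime.gcd_eq_one hgo] at d3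
        exact orderOf_eq_one_iff.1 (Nat.dvd_one.1 d3)
      calc g * x = (g * x * g⁻¹) * g := by group
        _ = x * g := by rw [hgxu, hu1, mul_one]
  intro x hx
  obtain ⟨k, hk⟩ := hP ⟨x, hx⟩
  have hk' : x ^ p ^ k = 1 := by
    have := congrArg Subtype.val hk
    simpa using this
  exact key k x hx hk'

end Cfsg.Agent.Lib.Helper14.BG12PO
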