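import Mathlib
import Cfsg.Agent.Lib.Helper16.BRStmt2
import Cfsg.Agent.Lib.Helper16.BRStmt
import Cfsg.Agent.Lib.Helper41.BRPG
import Cfsg.Agent.Lib.Helper79.BRPY
import Cfsg.Agent.Lib.Helper62.BRPH1
import Cfsg.Agent.Lib.Helper46.BRPH2
import Cfsg.Agent.S4441
import Cfsg.Agent.Lib.CT.Knorr
import Cfsg.Agent.Lib.CT.Wedderburn

/-!
# Brauer's theorem (`n < (p + 3) / 2`, S0996), piece [T1G]: the case
`|N_G(P) : C_G(P)| = p - 1` gives `(n + 1) ∣ (p - 2)`.
-/

set_option autoImplicit false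

namespace Cfsg.Agent.Lib.Helper14.BGT1G

open Cfsg Cfsg.Agent.Lib.CT.ThirdMain Cfsg.Agent.Lib.Helper16.BRSpec
open Cfsg.Agent.Lib.Helper41.BRPG (finsum_mem_eq_sum')
open scoped ComplexConjugate

universe u

/-- **Piece [T1G].** -/
theorem main : Cfsg.Agent.Lib.Helper16.BRStmt2.T1G.{u} := by
  intro hDegA hDegB hResSum G _ _ hperf p _ hp3 P hP hC n hNidx h2n hrel
  classical
  have hp : p.Prime := Fact.out
  letI : Fintype G := Fintype.ofFinite G
  haveI := Cfsg.Agent.Lib.CT.Wedderburn.finite_irrCharacter G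
  letI : Fintype (IrrCharacter G) := Fintype.ofFinite _
  obtain ⟨e, he⟩ : ∃ e, e = p - 1 := ⟨_, rfl⟩
  have hpe : p = e * 1 + 1 := by omega
  have he2 : 2 ≤ e := by omega
  have hrel' : (Subgroup.centralizer ((P : Subgroup G) : Set G)).relIndex
      (Subgroup.normalizer ((P : Subgroup G) : Set G)) = e := by rw [hrel, he]
  have hedvd : e ∣ p - 1 := by rw [he]
  -- `|N| = p e`
  have hCN : Subgroup.centralizer ((P : Subgroup G) : Set G) ≤
      Subgroup.normalizer ((P : Subgroup G) : Set G) := Subgroup.centralizer_le_normalizer _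
  have hNcard : Nat.card (Subgroup.normalizer ((P : Subgroup G) : Set G)) = p * e := by
    have h1 := Subgroup.card_mul_index ((Subgroup.centralizer ((P : Subgroup G) : Set G)).subgroupOf
      (Subgroup.normalizer ((P : Subgroup G) : Set G)))
    have h2 : Nat.card ((Subgroup.centralizer ((P : Subgroup G) : Set G)).subgroupOf
        (Subgroup.normalizer ((P : Subgroup G) : Set G)))
        = Nat.card (Subgroup.centralizer ((P : Subgroup G) : Set G)) :=
      Nat.card_congr (Subgroup.subgroupOfEquivOfLe hCN).toEquiv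
    have h3 : ((Subgroup.centralizer ((P : Subgroup G) : Set G)).subgroupOf
        (Subgroup.normalizer ((P : Subgroup G) : Set G))).index = e := hrel'
    rw [h2, h3, hC, hP] at h1
    exact h1.symm
  -- the block data
  obtain ⟨M, hM⟩ := Cfsg.Agent.Lib.CT.Knorr.exists_isPModular p hp
  have hMp : M.IsPrime := hM.2.1.isPrime
  obtain ⟨X, Y, hB0, hXY, hXc, hYc, εX, ε, hX, hε, hYd, hYr, hrelY⟩ :=
    Cfsg.Agent.S4441.result p M hM (by omega) P hP e hrel'
  rw [Nat.card_coe_set_eq] at hXc hYc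
  have hYt : Y.ncard = 1 := by
    rw [hYc, he]
    exact Nat.div_self (by omega)
  have h1reg : ¬ p ∣ orderOf (1 : G) := by
    rw [orderOf_one, Nat.dvd_one]
    exact hp.ne_one
  obtain ⟨z₀, hz₀, hz₀1⟩ : ∃ z ∈ (P : Subgroup G), z ≠ 1 := by
    by_contra hcon
    push Not at hcon
    have hbot : (P : Subgroup G) = ⊥ := (Subgroup.eq_bot_iff_forall _).2 hcon
    rw [hbot, Subgroup.card_bot] at hP
    omega
  have hXval : ∀ χ ∈ X, ∀ z ∈ (P : Subgroup G), z ≠ 1 → (χ : G → ℂ) z = (εX χ : ℂ) := by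
    intro χ hχ z hz hz1
    have h := (hX χ hχ).2.2 z hz hz1 1 (Subgroup.one_mem _) h1reg
    rwa [mul_one] at h
  obtain ⟨θ₀, hYeq⟩ := Set.ncard_eq_one.1 hYt
  have hY11 : ∀ θ ∈ Y, ∀ θ' ∈ Y, (θ : G → ℂ) 1 = (θ' : G → ℂ) 1 := by
    intro θ hθ θ' hθ'
    exact hYr θ hθ θ' hθ' 1 h1reg
  have hdeg : ∀ θ ∈ Y, (ε : ℂ) * (θ : G → ℂ) 1 = ∑ᶠ χ ∈ X, (εX χ : ℂ) * (χ : G → ℂ) 1 :=
    fun θ hθ => hrelY θ hθ 1 h1reg
  obtain ⟨hYc', -, -, hvan⟩ := Cfsg.Agent.Lib.Helper79.BRPY.main G p M hM P hP hC e 1 hpe hNcard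
    X Y hB0 hXY hXc hYt εX ε hε (fun χ hχ => ⟨(hX χ hχ).1, hXval χ hχ⟩) hY11 hdeg
  have hθval : ∀ z ∈ (P : Subgroup G), z ≠ 1 → (θ₀ : G → ℂ) z = -(ε : ℂ) := by
    intro z hz hz1
    have h := hYc' z hz hz1
    rw [hYeq, finsum_mem_singleton] at h
    exact h
  -- the constant value of each irreducible character on `P \ {1}`
  obtain ⟨c, hc⟩ : ∃ c : IrrCharacter G → ℤ, ∀ χ, (c χ = 1 ∨ c χ = -1 ∨ c χ = 0) ∧
      ∀ z ∈ (P : Subgroup G), z ≠ 1 → (χ : G → ℂ) z = (c χ : ℂ) := by
    refine ⟨fun χ => if χ ∈ X then εX χ else if χ ∈ Y then -ε else 0, fun χ => ?_⟩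
    by_cases h1 : χ ∈ X
    · simp only [if_pos h1]
      refine ⟨?_, hXval χ h1⟩
      rcases (hX χ h1).1 with h | h
      · left; exact h
      · right; left; exact h
    · by_cases h2 : χ ∈ Y
      · simp only [if_neg h1, if_pos h2]
        have hχθ : χ = θ₀ := by
          rw [hYeq] at h2
          exact h2
        refine ⟨?_, fun z hz hz1 => ?_⟩
        · rcases hε with h | h
          · right; left; rw [h]
          · left; rw [h]; norm_num
        · rw [hχθ, hθval z hz hz1]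
          push_cast
          ring
      · simp only [if_neg h1, if_neg h2]
        refine ⟨Or.inr (Or.inr trivial), fun z hz hz1 => ?_⟩
        have hnB : χ ∉ principalBlock M G := by
          rw [hB0]
          rintro (h | h)
          · exact h1 h
          · exact h2 h
        rw [hvan χ hnB z hz hz1]
        simp
  -- restriction to the normalizer
  obtain ⟨y, hyN, hyo, hyP, hcov, hreg, hconj⟩ :=
    Cfsg.Agent.Lib.Helper62.BRPH1.main G p P hP hC e hNcard
  obtain ⟨ω, mult, R⟩ :=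
    Cfsg.Agent.Lib.Helper46.BRPH2.main G p P hP hC e hNcard y hyN hyo hyP hcov hreg hconj
  -- the non-identity elements of `P`
  obtain ⟨Ps, hPs⟩ : ∃ Ps : Finset G, ∀ z, z ∈ Ps ↔ z ∈ (P : Subgroup G) ∧ z ≠ 1 :=
    ⟨Finset.univ.filter (fun z => z ∈ (P : Subgroup G) ∧ z ≠ 1), fun z => by simp⟩
  have h1Ps : (1 : G) ∉ Ps := fun h => ((hPs 1).1 h).2 rfl
  have hPscard : Ps.card + 1 = p := by
    have h1 : insert 1 Ps = Finset.univ.filter (fun z : G => z ∈ (P : Subgroup G)) := by
      ext z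
      rw [Finset.mem_insert, hPs, Finset.mem_filter]
      constructor
      · rintro (h | h)
        · rw [h]
          exact ⟨Finset.mem_univ _, one_mem _⟩
        · exact ⟨Finset.mem_univ _, h.1⟩
      · intro h
        by_cases hz : z = 1
        · exact Or.inl hz
        · exact Or.inr ⟨h.2, hz⟩
    have h3 : (Finset.univ.filter (fun z : G => z ∈ (P : Subgroup G))).card
        = Nat.card (P : Subgroup G) := by
      rw [Nat.card_eq_fintype_card, Fintype.card_subtype]
    rw [← Finset.card_insert_of_notMem h1Ps, h1, h3, hP]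
  have hPsum : ∀ χ : IrrCharacter G, ∑ᶠ x ∈ ((P : Subgroup G) : Set G), (χ : G → ℂ) x
      = (χ : G → ℂ) 1 + (Ps.card : ℂ) * (c χ : ℂ) := by
    intro χ
    rw [finsum_mem_eq_sum' _ _ (insert 1 Ps) (fun x => by
      rw [Finset.mem_insert, hPs]
      constructor
      · rintro (h | h)
        · rw [h]
          exact (P : Subgroup G).one_mem
        · exact h.1
      · intro h
        by_cases hx : x = 1
        · exact Or.inl hx
        · exact Or.inr ⟨h, hx⟩), Finset.sum_insert h1Ps]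
    congr 1
    rw [Finset.sum_congr rfl (fun z hz => (hc χ).2 z ((hPs z).1 hz).1 ((hPs z).1 hz).2)]
    simp
  obtain ⟨S, hS⟩ : ∃ S : IrrCharacter G → ℕ, ∀ χ, S χ = ∑ i ∈ Finset.range e, mult χ i :=
    ⟨_, fun _ => rfl⟩
  have hr2 : ∀ χ : IrrCharacter G,
      (p : ℂ) * (S χ : ℂ) = (χ : G → ℂ) 1 + (Ps.card : ℂ) * (c χ : ℂ) := by
    intro χ
    rw [← hPsum χ, ← R.r2 χ, hS χ]
    push_cast
    rfl
  have hct : c (triv G) = 1 := by
    have h := (hc (triv G)).2 z₀ hz₀ hz₀1
    rw [coe_triv] at h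
    have h2 : ((1 : ℤ) : ℂ) = (c (triv G) : ℂ) := by simpa using h
    exact (Int.cast_injective h2).symm
  have hSt : S (triv G) = 1 := by
    have h := hr2 (triv G)
    rw [hct, coe_triv] at h
    have h2 : ((p * S (triv G) : ℕ) : ℂ) = ((1 + Ps.card : ℕ) : ℂ) := by
      push_cast
      rw [h]
      push_cast
      ring
    have h3 : p * S (triv G) = 1 + Ps.card := Nat.cast_injective h2
    have h4 : p * S (triv G) = p * 1 := by omega
    exact Nat.eq_of_mul_eq_mul_left hp.pos h4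
  have hSA : ∀ χ, χ ≠ triv G → c χ = 1 → S χ = n + 1 := by
    intro χ hne h1
    have hd := hDegA G hperf p P hP hC e n hNcard hedvd hNidx h2n hp3 y ω mult R χ hne
      (fun z hz hz1 => by rw [(hc χ).2 z hz hz1, h1]; simp)
    have h := hr2 χ
    rw [h1, hd] at h
    have h2 : ((p * S χ : ℕ) : ℂ) = ((1 + n * p + Ps.card : ℕ) : ℂ) := by
      push_cast
      rw [h]
      push_cast
      ring
    have h3 : p * S χ = 1 + n * p + Ps.card := Nat.cast_injective h2
    have h4 : p * S χ = p * (n + 1) := by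
      have e1 : p * (n + 1) = n * p + p := by ring
      omega
    exact Nat.eq_of_mul_eq_mul_left hp.pos h4
  have hneg : ∀ χ, c χ = -1 → ∀ i, i < e → mult χ i = 0 := by
    intro χ h1
    exact (hDegB G p P hP hC e n hNcard hedvd hNidx h2n hp3 y ω mult R χ
      (fun z hz hz1 => by rw [(hc χ).2 z hz hz1, h1]; simp)).2
  -- the column sums
  have hcol : ∀ i, i < e → ∑ χ : IrrCharacter G, (if c χ = 1 then mult χ i else 0) = 1 := by
    intro i hi
    have h := hResSum G p P hP hC e hNcard y ω mult R i hi z₀ hz₀ hz₀1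
    rw [finsum_eq_sum_of_fintype] at h
    have h2 : ((∑ χ : IrrCharacter G, (if c χ = 1 then mult χ i else 0) : ℕ) : ℂ)
        = ((1 : ℕ) : ℂ) := by
      rw [Nat.cast_one, ← h, Nat.cast_sum]
      refine Finset.sum_congr rfl (fun χ _ => ?_)
      rw [(hc χ).2 z₀ hz₀ hz₀1]
      rcases (hc χ).1 with h1 | h1 | h1
      · rw [if_pos h1, h1]
        simp
      · rw [if_neg (by omega), h1, hneg χ h1 i hi]
        simp
      · rw [if_neg (by omega), h1]
        simp
    exact Nat.cast_injective h2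
  have htotal : ∑ χ : IrrCharacter G, (if c χ = 1 then S χ else 0) = e := by
    have h1 : ∑ i ∈ Finset.range e, ∑ χ : IrrCharacter G, (if c χ = 1 then mult χ i else 0)
        = e := by
      rw [Finset.sum_congr rfl (fun i hi => hcol i (Finset.mem_range.1 hi))]
      simp
    rw [Finset.sum_comm] at h1
    rw [← h1]
    refine Finset.sum_congr rfl (fun χ _ => ?_)
    by_cases h : c χ = 1
    · simp only [if_pos h]
      exact hS χ
    · simp only [if_neg h]
      simp
  rw [← Finset.add_sum_erase Finset.univ _ (Finset.mem_univ (triv G)), if_pos hct, hSt]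
    at htotal
  have h5 : ∑ χ ∈ (Finset.univ : Finset (IrrCharacter G)).erase (triv G),
      (if c χ = 1 then S χ else 0)
      = (n + 1) * ((Finset.univ.erase (triv G)).filter (fun χ => c χ = 1)).card := by
    rw [Finset.card_filter, Finset.mul_sum]
    refine Finset.sum_congr rfl (fun χ hχ => ?_)
    by_cases h : c χ = 1
    · rw [if_pos h, if_pos h, hSA χ (Finset.ne_of_mem_erase hχ) h, mul_one]
    · rw [if_neg h, if_neg h, mul_zero]
  obtain ⟨a', ha'⟩ : ∃ a' : ℕ, ∑ χ ∈ (Finset.univ : Finset (IrrCharacter G)).erase (triv G),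
      (if c χ = 1 then S χ else 0) = (n + 1) * a' := ⟨_, h5⟩
  rw [ha'] at htotal
  exact Dvd.intro a' (by omega)

end Cfsg.Agent.Lib.Helper14.BGT1G
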