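import Mathlib
import Cfsg.Agent.Lib.Helper27.CzStmt
import Cfsg.Agent.Lib.Helper90.FStarES
import Cfsg.Agent.Lib.Helper78.Fitting
import Cfsg.Agent.Lib.Helper5.SpCard

/-!
# S2136, piece ASM: the group-theoretic assembly
-/

set_option autoImplicit false

namespace Cfsg.Agent.Lib.Helper14.CzASM

open Cfsg Cfsg.Agent.Lib.Helper27.CzStmt

theorem card_Sp6 : Nat.card Sp6 = 1451520 := by
  have h := Cfsg.Agent.Lib.Helper5.SpCard.card_symplectic (F := ZMod 2) 3
  rw [ZMod.card] at h
  rw [h]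
  decide

theorem main : Asm := by
  intro G A _ _ _ φ ι K hsurj hinj hK hKcard hsq hKpre hndvd hO2
  have hprime : Fact (Nat.Prime 2) := ⟨Nat.prime_two⟩
  have hM_le : K.comap ι ≤ φ.ker := by
    intro g hg
    obtain ⟨g', hg', hφ⟩ := hKpre (ι g) hg
    have h1 : g' = g := hinj hg'
    rw [h1] at hφ
    exact hφ
  have hbij : Function.Bijective (ι.subgroupComap K) := by
    constructor
    · intro x y hxy
      apply Subtype.ext
      apply hinj
      exact congrArg Subtype.val hxy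
    · intro k
      obtain ⟨g, hg, -⟩ := hKpre k.1 k.2
      refine ⟨⟨g, ?_⟩, ?_⟩
      · rw [Subgroup.mem_comap, hg]
        exact k.2
      · apply Subtype.ext
        exact hg
  have hMcard : Nat.card (K.comap ι) = 2 ^ 9 := by
    rw [← hKcard]
    exact Nat.card_congr (Equiv.ofBijective _ hbij)
  have hNp : IsPGroup 2 φ.ker := by
    rintro ⟨g, hg⟩
    refine ⟨10, ?_⟩
    apply Subtype.ext
    rw [Subgroup.coe_pow, Subgroup.coe_one]
    show g ^ 2 ^ 10 = 1
    have h1 : ι (g * g) ∈ K := hsq g hg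
    have h2 : (⟨ι (g * g), h1⟩ : K) ^ Nat.card K = 1 := pow_card_eq_one'
    rw [hKcard] at h2
    have h3 : ι (g * g) ^ 2 ^ 9 = 1 := by
      have h4 := congrArg Subtype.val h2
      rw [Subgroup.coe_pow, Subgroup.coe_one] at h4
      exact h4
    apply hinj
    rw [map_one, ← h3, ← map_pow, ← pow_two, ← pow_mul]
    rfl
  have hGcard : Nat.card G = Nat.card φ.ker * 1451520 := by
    rw [← card_Sp6, ← Nat.card_congr (QuotientGroup.quotientKerEquivOfSurjective φ hsurj).toEquiv,
      mul_comm]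
    exact Subgroup.card_eq_card_quotient_mul_card_subgroup φ.ker
  obtain ⟨a, ha⟩ := hNp.exists_card_eq
  have ha9 : a ≤ 9 := by
    by_contra hcon
    apply hndvd
    rw [hGcard, ha]
    have h1 : 2 ^ 10 ∣ 2 ^ a := pow_dvd_pow 2 (by omega)
    have h2 : (2 : ℕ) ^ 19 = 2 ^ 10 * 2 ^ 9 := by norm_num
    rw [h2]
    exact mul_dvd_mul h1 (by norm_num)
  have hNM : K.comap ι = φ.ker := by
    apply Subgroup.eq_of_le_of_card_ge hM_le
    rw [hMcard, ha]
    exact Nat.pow_le_pow_right (by norm_num) ha9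
  have hcore : pCore 2 G = φ.ker := by
    apply le_antisymm
    · have hn := Cfsg.Agent.Lib.Helper78.Fitting.pCore_normal (G := G) 2
      have hp := Cfsg.Agent.Lib.Helper78.Fitting.pCore_isPGroup (G := G) 2
      have himg : (pCore 2 G).map φ = ⊥ := hO2 _ (hn.map φ hsurj) (hp.map φ)
      intro g hg
      have h1 : φ g ∈ (pCore 2 G).map φ := Subgroup.mem_map_of_mem φ hg
      rw [himg] at h1
      exact Subgroup.mem_bot.1 h1
    · exact Cfsg.Agent.Lib.Helper78.Fitting.le_pCore (MonoidHom.normal_ker φ) hNp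
  have e : ↥K ≃* ↥(pCore 2 G) :=
    (MulEquiv.ofBijective (ι.subgroupComap K) hbij).symm.trans
      (MulEquiv.subgroupCongr (hNM.trans hcore.symm))
  refine ⟨Cfsg.Agent.Lib.Helper90.FStarES.isExtraspecial_of_mulEquiv e hK, ?_, ?_⟩
  · rw [← Nat.card_congr e.toEquiv, hKcard]
  · have hn := Cfsg.Agent.Lib.Helper78.Fitting.pCore_normal (G := G) 2
    exact ⟨(QuotientGroup.quotientMulEquivOfEq hcore).trans
      (QuotientGroup.quotientKerEquivOfSurjective φ hsurj)⟩

end Cfsg.Agent.Lib.Helper14.CzASM
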