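import Mathlib
import Cfsg.Agent.Lib.Helper27.CzStmt

/-!
# S2136, piece SPHOM: the homomorphism to the symplectic group
-/

set_option autoImplicit false

namespace Cfsg.Agent.Lib.Helper14.CzSPHOM

open Cfsg.Agent.Lib.Helper27.CzStmt

theorem J_apply (i j : Fin 3 ⊕ Fin 3) :
    Matrix.J (Fin 3) (ZMod 2) i j = if j = i.swap then 1 else 0 := by
  have hneg : (-1 : ZMod 2) = 1 := by decide
  rcases i with a | a <;> rcases j with c | c
  · simp [Matrix.J]
  · by_cases h : a = c
    · subst h
      simp [Matrix.J, hneg]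
    · have h' : ¬ c = a := fun h2 => h h2.symm
      simp [Matrix.J, h, h']
  · by_cases h : a = c
    · subst h
      simp [Matrix.J]
    · have h' : ¬ c = a := fun h2 => h h2.symm
      simp [Matrix.J, h, h']
  · simp [Matrix.J]

theorem main : SpHom := by
  intro C R _ _ B b hinv hb hcomp
  have hcomp' : ∀ x y, B x y = ∑ i, B (b i) x * B (b i.swap) y := by
    intro x y
    rw [hcomp]
    refine Finset.sum_congr rfl fun i _ => ?_
    rw [Finset.sum_eq_single i.swap]
    · rw [J_apply, if_pos rfl, mul_one]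
    · intro j _ hj
      rw [J_apply, if_neg hj, mul_zero, zero_mul]
    · intro h
      exact absurd (Finset.mem_univ _) h
  have hsymm : ∀ x y, B x y = B y x := by
    intro x y
    rw [hcomp' x y, hcomp' y x, ← Equiv.sum_comp (Equiv.sumComm (Fin 3) (Fin 3))]
    refine Finset.sum_congr rfl fun i _ => ?_
    simp [mul_comm]
  have hkey : ∀ (g : C) (x : R) (i : Fin 3 ⊕ Fin 3),
      B (b i) (g • x) = ∑ k, B (b i) (g • b k) * B (b k.swap) x := by
    intro g x i
    have h1 : B (b i) (g • x) = B (g⁻¹ • b i) x := by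
      have h := hinv g⁻¹ (b i) (g • x)
      rw [inv_smul_smul] at h
      exact h.symm
    rw [h1, hcomp']
    refine Finset.sum_congr rfl fun k _ => ?_
    have h2 : B (b k) (g⁻¹ • b i) = B (b i) (g • b k) := by
      have h := hinv g (b k) (g⁻¹ • b i)
      rw [smul_inv_smul] at h
      rw [← h, hsymm]
    rw [h2]
  obtain ⟨A, hA⟩ : ∃ A : C → Matrix (Fin 3 ⊕ Fin 3) (Fin 3 ⊕ Fin 3) (ZMod 2),
      ∀ g i j, A g i j = B (b i.swap) (g • b j) :=
    ⟨fun g => Matrix.of fun i j => B (b i.swap) (g • b j), fun _ _ _ => rfl⟩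
  have hmem : ∀ g : C, A g ∈ Matrix.symplecticGroup (Fin 3) (ZMod 2) := by
    intro g
    rw [SymplecticGroup.mem_iff']
    have hAJ : ∀ i l, (Matrix.transpose (A g) * Matrix.J (Fin 3) (ZMod 2)) i l =
        B (b l) (g • b i) := by
      intro i l
      rw [Matrix.mul_apply, Finset.sum_eq_single l.swap]
      · rw [J_apply, if_pos (Sum.swap_swap l).symm, mul_one, Matrix.transpose_apply, hA,
          Sum.swap_swap]
      · intro k _ hk
        have hk' : ¬ l = k.swap := by
          intro h
          apply hk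
          rw [h, Sum.swap_swap]
        rw [J_apply, if_neg hk', mul_zero]
      · intro h
        exact absurd (Finset.mem_univ _) h
    ext i j
    rw [Matrix.mul_apply, ← hb i j, ← hinv g (b i) (b j), hcomp' (g • b i) (g • b j)]
    refine Finset.sum_congr rfl fun k _ => ?_
    rw [hAJ, hA]
  have hone : A 1 = 1 := by
    ext i j
    rw [hA, one_smul, hb, J_apply, Matrix.one_apply]
    simp [eq_comm]
  have hmul : ∀ g h : C, A (g * h) = A g * A h := by
    intro g h
    ext i j
    rw [Matrix.mul_apply, hA, mul_smul, hkey]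
    refine Finset.sum_congr rfl fun k _ => ?_
    rw [hA, hA]
  refine ⟨{ toFun := fun g => ⟨A g, hmem g⟩, map_one' := ?_, map_mul' := ?_ }, ?_, ?_, ?_⟩
  · exact Subtype.ext hone
  · intro g h
    exact Subtype.ext (hmul g h)
  · intro g i j
    exact hA g i j
  · intro g hg x i
    have h0 : A g = 1 := congrArg Subtype.val hg
    have h1 : ∀ i j, B (b i.swap) (g • b j) =
        (1 : Matrix (Fin 3 ⊕ Fin 3) (Fin 3 ⊕ Fin 3) (ZMod 2)) i j := by
      intro i j
      rw [← hA, h0]
    rw [hkey, Finset.sum_eq_single i.swap]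
    · have h2 := h1 i.swap i.swap
      rw [Sum.swap_swap] at h2
      rw [h2, Matrix.one_apply_eq, one_mul, Sum.swap_swap]
    · intro k _ hk
      have h2 := h1 i.swap k
      rw [Sum.swap_swap] at h2
      rw [h2, Matrix.one_apply_ne (Ne.symm hk), zero_mul]
    · intro h
      exact absurd (Finset.mem_univ _) h
  · intro g hg
    apply Subtype.ext
    show A g = 1
    ext i j
    rw [hA, hg, hb, J_apply, Matrix.one_apply]
    simp [eq_comm]

end Cfsg.Agent.Lib.Helper14.CzSPHOM
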