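import Mathlib
import Cfsg.Agent.Lib.Helper45.EPStmt

/-!
# S5988 / PELTE2 (call by helper45; helper14, second seat)

Characteristic `2`: the Siegel involution `x = [[1, S], [0, 1]]`, `S = Σ_j (E_(a_j b_j) - E_(b_j a_j))`
(`a_j = 2 j`, `b_j = 2 j + 1`, `j < ρ / 2`), lies in `Omega^+` = the commutator subgroup of the
isometry group: each `[[1, E_ab - E_ba], [0, 1]]` is the commutator of `diag (A, A⁻ᵀ)`,
`A = 1 + E_bc`, and `[[1, E_ac - E_ca], [0, 1]]` (`c ≠ a, b`; `d ≥ 3`).
-/

set_option autoImplicit false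

namespace Cfsg.Agent.Lib.Helper14.EPPELTE2

open Matrix
open Cfsg.Agent.Lib.Helper94.OPStmt
open Cfsg.Agent.Lib.Helper45.EPStmt

universe u

section blocks

variable {F : Type u} [Field F] {d : ℕ}

/-- the Siegel matrix -/
def sg (S : Matrix (Fin d) (Fin d) F) : Matrix (P d) (P d) F := fromBlocks 1 S 0 1

theorem sg_mul (S T : Matrix (Fin d) (Fin d) F) : sg S * sg T = sg (S + T) := by
  unfold sg
  rw [fromBlocks_multiply]
  simp [add_comm]

theorem sg_zero : sg (0 : Matrix (Fin d) (Fin d) F) = 1 := by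
  unfold sg
  exact fromBlocks_one

/-- `diag (A, Bᵀ)` -/
def dg (A B : Matrix (Fin d) (Fin d) F) : Matrix (P d) (P d) F := fromBlocks A 0 0 Bᵀ

theorem dg_mul (A B A' B' : Matrix (Fin d) (Fin d) F) :
    dg A B * dg A' B' = dg (A * A') (B' * B) := by
  unfold dg
  rw [fromBlocks_multiply]
  simp [transpose_mul]

theorem dg_one : dg (1 : Matrix (Fin d) (Fin d) F) 1 = 1 := by
  unfold dg
  rw [transpose_one]
  exact fromBlocks_one

theorem dg_sg_dg (A A' S : Matrix (Fin d) (Fin d) F) (h : A * A' = 1) :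
    dg A A' * sg S * dg A' A = sg (A * S * Aᵀ) := by
  have h' : A'ᵀ * Aᵀ = 1 := by rw [← transpose_mul, h, transpose_one]
  unfold dg sg
  rw [fromBlocks_multiply, fromBlocks_multiply]
  simp [h, h']

theorem sg_mulVec_inl (S : Matrix (Fin d) (Fin d) F) (v : P d → F) (i : Fin d) :
    (sg S *ᵥ v) (Sum.inl i) = v (Sum.inl i) + (S *ᵥ (v ∘ Sum.inr)) i := by
  unfold sg
  rw [fromBlocks_mulVec]
  simp

theorem sg_mulVec_inr (S : Matrix (Fin d) (Fin d) F) (v : P d → F) (i : Fin d) :
    (sg S *ᵥ v) (Sum.inr i) = v (Sum.inr i) := by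
  unfold sg
  rw [fromBlocks_mulVec]
  simp

theorem dg_mulVec_inl (A B : Matrix (Fin d) (Fin d) F) (v : P d → F) (i : Fin d) :
    (dg A B *ᵥ v) (Sum.inl i) = (A *ᵥ (v ∘ Sum.inl)) i := by
  unfold dg
  rw [fromBlocks_mulVec]
  simp

theorem dg_mulVec_inr (A B : Matrix (Fin d) (Fin d) F) (v : P d → F) (i : Fin d) :
    (dg A B *ᵥ v) (Sum.inr i) = (Bᵀ *ᵥ (v ∘ Sum.inr)) i := by
  unfold dg
  rw [fromBlocks_mulVec]
  simp

theorem Q_sg (S : Matrix (Fin d) (Fin d) F) (hS : ∀ w : Fin d → F, (S *ᵥ w) ⬝ᵥ w = 0)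
    (v : P d → F) :
    Cfsg.quadFormPlus d F (sg S *ᵥ v) = Cfsg.quadFormPlus d F v := by
  unfold Cfsg.quadFormPlus
  simp only [sg_mulVec_inl, sg_mulVec_inr]
  have h : ∑ i, (S *ᵥ (v ∘ Sum.inr)) i * v (Sum.inr i) = 0 := hS (v ∘ Sum.inr)
  simp only [add_mul, Finset.sum_add_distrib]
  rw [h, add_zero]

theorem Q_dg (A A' : Matrix (Fin d) (Fin d) F) (h : A' * A = 1) (v : P d → F) :
    Cfsg.quadFormPlus d F (dg A A' *ᵥ v) = Cfsg.quadFormPlus d F v := by
  unfold Cfsg.quadFormPlus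
  simp only [dg_mulVec_inl, dg_mulVec_inr]
  have h1 : (A *ᵥ (v ∘ Sum.inl)) ⬝ᵥ (A'ᵀ *ᵥ (v ∘ Sum.inr)) = (v ∘ Sum.inl) ⬝ᵥ (v ∘ Sum.inr) := by
    rw [dotProduct_mulVec, vecMul_transpose, mulVec_mulVec, h, one_mulVec]
  exact h1

/-- Siegel unit -/
def sgU (S : Matrix (Fin d) (Fin d) F) : Matrix.GeneralLinearGroup (P d) F :=
  ⟨sg S, sg (-S), by rw [sg_mul, add_neg_cancel, sg_zero], by rw [sg_mul, neg_add_cancel, sg_zero]⟩

/-- diagonal unit -/
def dgU (A A' : Matrix (Fin d) (Fin d) F) (h : A * A' = 1) (h' : A' * A = 1) :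
    Matrix.GeneralLinearGroup (P d) F :=
  ⟨dg A A', dg A' A, by rw [dg_mul, h, dg_one], by rw [dg_mul, h', dg_one]⟩

/-- `[[1, S], [0, 1]]` is (the matrix of) an element of `Omega` -/
def InOm (S : Matrix (Fin d) (Fin d) F) : Prop :=
  ∃ x : Matrix.GeneralLinearGroup (P d) F, x ∈ Cfsg.Geo.omegaGL (Cfsg.quadFormPlus d F) ∧
    (x : Matrix (P d) (P d) F) = sg S

theorem InOm_zero : InOm (0 : Matrix (Fin d) (Fin d) F) :=
  ⟨1, Subgroup.one_mem _, by rw [sg_zero]; rfl⟩

theorem InOm_add {S T : Matrix (Fin d) (Fin d) F} (hS : InOm S) (hT : InOm T) : InOm (S + T) := by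
  obtain ⟨x, hx, hxS⟩ := hS
  obtain ⟨y, hy, hyT⟩ := hT
  refine ⟨x * y, Subgroup.mul_mem _ hx hy, ?_⟩
  rw [Units.val_mul, hxS, hyT, sg_mul]

theorem alt_pair (a c : Fin d) (w : Fin d → F) :
    ((single a c (1 : F) - single c a 1) *ᵥ w) ⬝ᵥ w = 0 := by
  rw [sub_mulVec, sub_dotProduct, single_mulVec, single_mulVec]
  have h (i : Fin d) (t : F) : Function.update (0 : Fin d → F) i t = Pi.single i t := rfl
  rw [h, h, single_dotProduct, single_dotProduct]
  ring

theorem InOm_pair (a b c : Fin d) (hab : a ≠ b) (hac : a ≠ c) (hbc : b ≠ c) :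
    InOm (single a b (1 : F) - single b a 1) := by
  have hE : single b c (1 : F) * single b c (1 : F) = 0 :=
    single_mul_single_of_ne _ _ _ _ hbc.symm _
  have hA : (1 + single b c (1 : F)) * (1 - single b c 1) = 1 := by
    rw [add_mul, one_mul, mul_sub, mul_one, hE]
    abel
  have hA' : (1 - single b c (1 : F)) * (1 + single b c 1) = 1 := by
    rw [sub_mul, one_mul, mul_add, mul_one, hE]
    abel
  have h1 : single b c (1 : F) * single a c (1 : F) = 0 :=
    single_mul_single_of_ne _ _ _ _ hac.symm _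
  have h2 : single b c (1 : F) * single c a (1 : F) = single b a 1 := by
    rw [single_mul_single_same, mul_one]
  have h3 : single a c (1 : F) * single c b (1 : F) = single a b 1 := by
    rw [single_mul_single_same, mul_one]
  have h4 : single c a (1 : F) * single c b (1 : F) = 0 :=
    single_mul_single_of_ne _ _ _ _ hac _
  have h5 : single b a (1 : F) * single c b (1 : F) = 0 :=
    single_mul_single_of_ne _ _ _ _ hac _
  have hT : (1 + single b c (1 : F))ᵀ = 1 + single c b 1 := by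
    rw [transpose_add, transpose_one, transpose_single]
  have key : (1 + single b c (1 : F)) * (single a c 1 - single c a 1) * (1 + single b c (1 : F))ᵀ
      + -(single a c 1 - single c a 1) = single a b 1 - single b a 1 := by
    rw [hT]
    simp only [add_mul, mul_add, sub_mul, mul_sub, one_mul, mul_one, h1, h2, h3, h4, h5,
      zero_mul]
    abel
  obtain ⟨g, hg⟩ : ∃ g : ↥(Cfsg.isometryGroup F (Cfsg.quadFormPlus d F)),
      (g : Matrix.GeneralLinearGroup (P d) F) = dgU _ _ hA hA' := by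
    refine ⟨⟨dgU _ _ hA hA', ?_⟩, rfl⟩
    intro u v
    exact Q_dg _ _ hA' u
  obtain ⟨s, hs⟩ : ∃ s : ↥(Cfsg.isometryGroup F (Cfsg.quadFormPlus d F)),
      (s : Matrix.GeneralLinearGroup (P d) F) = sgU (single a c (1 : F) - single c a 1) := by
    refine ⟨⟨sgU _, ?_⟩, rfl⟩
    intro u v
    exact Q_sg _ (alt_pair a c) u
  refine ⟨((g * s * g⁻¹ * s⁻¹ : ↥(Cfsg.isometryGroup F (Cfsg.quadFormPlus d F))) :
    Matrix.GeneralLinearGroup (P d) F), ⟨g * s * g⁻¹ * s⁻¹, ?_, rfl⟩, ?_⟩
  · exact Subgroup.commutator_mem_commutator (Subgroup.mem_top g) (Subgroup.mem_top s)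
  · have h6 : (((g * s * g⁻¹ * s⁻¹ : ↥(Cfsg.isometryGroup F (Cfsg.quadFormPlus d F))) :
        Matrix.GeneralLinearGroup (P d) F) : Matrix (P d) (P d) F)
        = dg (1 + single b c (1 : F)) (1 - single b c 1)
          * sg (single a c (1 : F) - single c a 1)
          * dg (1 - single b c (1 : F)) (1 + single b c 1)
          * sg (-(single a c (1 : F) - single c a 1)) := by
      simp only [Subgroup.coe_mul, Subgroup.coe_inv, hg, hs, Units.val_mul]
      rfl
    rw [h6, dg_sg_dg _ _ _ hA, sg_mul, key]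

theorem exists_third (hd : 3 ≤ d) (x y : Fin d) : ∃ c : Fin d, c ≠ x ∧ c ≠ y := by
  by_contra hcon
  push Not at hcon
  have key : ∀ c : Fin d, c.val = x.val ∨ c.val = y.val := by
    intro c
    by_cases h : c = x
    · left
      rw [h]
    · right
      rw [hcon c h]
  have h0 := key ⟨0, by omega⟩
  have h1 := key ⟨1, by omega⟩
  have h2 := key ⟨2, by omega⟩
  simp only at h0 h1 h2
  omega

theorem S_mulVec {k : ℕ} (a b : Fin k → Fin d) (w : Fin d → F) :
    (∑ j, (single (a j) (b j) (1 : F) - single (b j) (a j) 1)) *ᵥ w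
      = ∑ j, (Pi.single (a j) (w (b j)) - Pi.single (b j) (w (a j))) := by
  rw [sum_mulVec]
  apply Finset.sum_congr rfl
  intro j _
  rw [sub_mulVec, single_mulVec, single_mulVec, one_mul, one_mul]
  rfl

end blocks

theorem main : PEltE2.{u} := by
  intro F _ _ _ d ρ hd hρe hρ2 hρd
  classical
  obtain ⟨k, hk⟩ := hρe
  have hk1 : 0 < k := by omega
  obtain ⟨a, ha⟩ : ∃ a : Fin k → Fin d, ∀ j, (a j).val = 2 * j.val :=
    ⟨fun j => ⟨2 * j.val, by have := j.isLt; omega⟩, fun j => rfl⟩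
  obtain ⟨b, hb⟩ : ∃ b : Fin k → Fin d, ∀ j, (b j).val = 2 * j.val + 1 :=
    ⟨fun j => ⟨2 * j.val + 1, by have := j.isLt; omega⟩, fun j => rfl⟩
  have hab : ∀ j j', a j ≠ b j' := by
    intro j j' h
    have := congrArg Fin.val h
    rw [ha, hb] at this
    omega
  have hba : ∀ j j', b j ≠ a j' := fun j j' h => hab j' j h.symm
  have ha_inj : ∀ j j', a j = a j' → j = j' := by
    intro j j' h
    have := congrArg Fin.val h
    rw [ha, ha] at this
    exact Fin.ext (by omega)
  have hb_inj : ∀ j j', b j = b j' → j = j' := by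
    intro j j' h
    have := congrArg Fin.val h
    rw [hb, hb] at this
    exact Fin.ext (by omega)
  obtain ⟨S, hSdef⟩ : ∃ S : Matrix (Fin d) (Fin d) F,
      S = ∑ j, (single (a j) (b j) (1 : F) - single (b j) (a j) 1) := ⟨_, rfl⟩
  have hSOm : InOm S := by
    rw [hSdef]
    apply Finset.sum_induction _ InOm (fun _ _ => InOm_add) InOm_zero
    intro j _
    obtain ⟨c, hca, hcb⟩ := exists_third hd (a j) (b j)
    exact InOm_pair (a j) (b j) c (hab j j) hca.symm hcb.symm
  obtain ⟨x, hxΩ, hxS⟩ := hSOm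
  have hNP : ∀ w : P d → F, NP (x : Matrix (P d) (P d) F) w = sg S *ᵥ w - w := by
    intro w
    rw [hxS]
    rfl
  have hNinr : ∀ (w : P d → F) (i : Fin d),
      NP (x : Matrix (P d) (P d) F) w (Sum.inr i) = 0 := by
    intro w i
    rw [hNP, Pi.sub_apply, sg_mulVec_inr, sub_self]
  have hNinl : ∀ (w : P d → F) (i : Fin d),
      NP (x : Matrix (P d) (P d) F) w (Sum.inl i) = (S *ᵥ (w ∘ Sum.inr)) i := by
    intro w i
    rw [hNP, Pi.sub_apply, sg_mulVec_inl, add_sub_cancel_left]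
  have hdec : ∀ w : P d → F, NP (x : Matrix (P d) (P d) F) w
      = ∑ j, (w (Sum.inr (b j)) • (Pi.single (Sum.inl (a j)) (1 : F) : P d → F)
          - w (Sum.inr (a j)) • (Pi.single (Sum.inl (b j)) (1 : F) : P d → F)) := by
    intro w
    funext i
    rcases i with i | i
    · rw [hNinl, hSdef, S_mulVec, Finset.sum_apply, Finset.sum_apply]
      apply Finset.sum_congr rfl
      intro j _
      simp [Pi.single_apply]
    · rw [hNinr, Finset.sum_apply]
      simp
  have hxx : (x : Matrix (P d) (P d) F) * (x : Matrix (P d) (P d) F) = 1 := by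
    rw [hxS, sg_mul]
    have h0 : S + S = 0 := by
      rw [← two_smul F S, CharTwo.two_eq_zero, zero_smul]
    rw [h0, sg_zero]
  have hrange : LinearMap.range (NP (x : Matrix (P d) (P d) F))
      ≤ FxP (x : Matrix (P d) (P d) F) := by
    rintro _ ⟨w, rfl⟩
    rw [mem_FxP]
    have e1 : (x : Matrix (P d) (P d) F) *ᵥ (NP (x : Matrix (P d) (P d) F) w)
        = sg S *ᵥ (NP (x : Matrix (P d) (P d) F) w) := by
      rw [hxS]
    rw [e1]
    funext i
    rcases i with i | i
    · rw [sg_mulVec_inl]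
      have h0 : (NP (x : Matrix (P d) (P d) F) w) ∘ Sum.inr = 0 := by
        funext t
        exact hNinr w t
      rw [h0, mulVec_zero]
      simp
    · rw [sg_mulVec_inr]
  have hQ0 : ∀ v, Cfsg.quadFormPlus d F (NP (x : Matrix (P d) (P d) F) v) = 0 := by
    intro v
    unfold Cfsg.quadFormPlus
    apply Finset.sum_eq_zero
    intro i _
    rw [hNinr, mul_zero]
  obtain ⟨β, hβ⟩ : ∃ β : Fin k ⊕ Fin k → Fin d, β = Sum.elim a b := ⟨_, rfl⟩
  have hβinj : Function.Injective β := by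
    rw [hβ]
    rintro (s | s) (t | t) h
    · exact congrArg Sum.inl (ha_inj s t h)
    · exact absurd h (hab s t)
    · exact absurd h (hba s t)
    · exact congrArg Sum.inr (hb_inj s t h)
  have hE1 : ∀ j₀, NP (x : Matrix (P d) (P d) F) (Pi.single (Sum.inr (b j₀)) 1)
      = Pi.single (Sum.inl (a j₀)) (1 : F) := by
    intro j₀
    rw [hdec, Finset.sum_eq_single j₀]
    · simp [Pi.single_apply, hab, hba]
    · intro j _ hj
      have h1 : b j ≠ b j₀ := fun h => hj (hb_inj j j₀ h)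
      simp [Pi.single_apply, h1, hab, hba]
    · intro h
      exact absurd (Finset.mem_univ _) h
  have hE2 : ∀ j₀, NP (x : Matrix (P d) (P d) F) (-(Pi.single (Sum.inr (a j₀)) 1))
      = Pi.single (Sum.inl (b j₀)) (1 : F) := by
    intro j₀
    rw [hdec, Finset.sum_eq_single j₀]
    · simp [Pi.single_apply, hab, hba]
    · intro j _ hj
      have h1 : a j ≠ a j₀ := fun h => hj (ha_inj j j₀ h)
      simp [Pi.single_apply, h1, hab, hba]
    · intro h
      exact absurd (Finset.mem_univ _) h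
  have hfin : Module.finrank F ↥(LinearMap.range (NP (x : Matrix (P d) (P d) F))) = ρ := by
    have hli : LinearIndependent F
        (fun s : Fin k ⊕ Fin k => (Pi.single (Sum.inl (β s)) (1 : F) : P d → F)) :=
      (Pi.linearIndependent_single_one (P d) F).comp
        (fun s : Fin k ⊕ Fin k => (Sum.inl (β s) : P d)) (fun s t h => hβinj (Sum.inl.inj h))
    have heq : LinearMap.range (NP (x : Matrix (P d) (P d) F)) = Submodule.span F
        (Set.range (fun s : Fin k ⊕ Fin k => (Pi.single (Sum.inl (β s)) (1 : F) : P d → F))) := by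
      apply le_antisymm
      · rintro _ ⟨w, rfl⟩
        rw [hdec]
        apply Submodule.sum_mem
        intro j _
        apply Submodule.sub_mem
        · exact Submodule.smul_mem _ _ (Submodule.subset_span ⟨Sum.inl j, by rw [hβ]; rfl⟩)
        · exact Submodule.smul_mem _ _ (Submodule.subset_span ⟨Sum.inr j, by rw [hβ]; rfl⟩)
      · rw [Submodule.span_le]
        rintro _ ⟨s, rfl⟩
        rcases s with j | j
        · exact ⟨_, by rw [hβ]; exact hE1 j⟩
        · exact ⟨_, by rw [hβ]; exact hE2 j⟩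
    rw [heq, finrank_span_eq_card hli, Fintype.card_sum, Fintype.card_fin]
    omega
  have hns : ∀ z : F, (x : Matrix (P d) (P d) F) ≠ z • (1 : Matrix (P d) (P d) F) := by
    intro z hz
    have h1 := hE1 ⟨0, hk1⟩
    have h2 : NP (x : Matrix (P d) (P d) F) (Pi.single (Sum.inr (b ⟨0, hk1⟩)) 1)
        (Sum.inl (a ⟨0, hk1⟩)) = 0 := by
      unfold NP
      rw [hz]
      simp
    rw [h1] at h2
    simp at h2
  exact ⟨x, hxΩ, hxx, hns, hrange, hQ0, hfin⟩

end Cfsg.Agent.Lib.Helper14.EPPELTE2
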