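import Cfsg.Agent.Lib.Helper59.HypDERELT
import Cfsg.Agent.Lib.Helper44.OTyp3
import Cfsg.Agent.Lib.Helper41.TMStmt
import Cfsg.Agent.Lib.Helper8.OrdRElt

/-!
# S5987 / ELTDIM (helper14): elements of order `r` of `Omega^-_(2d)(q)` (all `q`) with `b` blocks
of size `cc i` and fixed space of finrank `2 d - b cc i`.

Port of `Helper8.TPELTDIM` to the minus form.  Also `sep_minusQ_all`: the polar form of the
standard minus form is nondegenerate over every finite field (characteristic two included).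
-/

set_option autoImplicit false

namespace Cfsg.Agent.Lib.Helper14.TMELTDIM

open Polynomial UniqueFactorizationMonoid Matrix
open Cfsg.Agent.Lib.Helper40.RecipPoly Cfsg.Agent.Lib.Helper44.OCls2 Cfsg.Agent.Lib.Helper44.OCls3
  Cfsg.Agent.Lib.Helper44.OCls4
open Cfsg.Agent.Lib.Helper37.HypStmt (cc)
open Cfsg.Agent.Lib.Helper59.HypDERELT (order_facts exists_block real_pow)

universe u

/-- the polar form of the standard minus form is nondegenerate, all finite fields -/
theorem sep_minusQ_all {F : Type u} [Field F] [Fintype F] (m : ℕ) (a b : F)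
    (hab : ∀ z₁ z₂ : F, z₁ ^ 2 + a * z₁ * z₂ + b * z₂ ^ 2 = 0 → z₁ = 0 ∧ z₂ = 0) :
    Cfsg.Agent.Lib.Helper44.QSpace.Sep (Cfsg.Agent.Lib.Helper44.NegPairs.minusQ m F a b) := by
  by_cases h2 : (2 : F) = 0
  · have ha : a ≠ 0 := by
      intro ha
      have hch : CharP F 2 := CharTwo.of_one_ne_zero_of_two_eq_zero one_ne_zero h2
      obtain ⟨s, hs⟩ := FiniteField.isSquare_of_char_two (ringChar.eq F 2) b
      have h3 := hab s 1 (by
        rw [ha, hs]
        linear_combination (s * s) * h2)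
      exact one_ne_zero h3.2
    apply Cfsg.Agent.Lib.Helper44.NegPairs.sep_of_H1
      (Cfsg.Agent.Lib.Helper44.NegPairs.minusQ m F a b) Sum.inl
      (Cfsg.Agent.Lib.Helper44.NegPairs.minus_H1 m a b)
    intro x hx k hk
    have h0 := hx (Pi.single (Sum.inr 0) 1)
    have h1 := hx (Pi.single (Sum.inr 1) 1)
    have e0 : QuadraticMap.polar (Cfsg.Agent.Lib.Helper44.NegPairs.minusQ m F a b) x
        (Pi.single (Sum.inr 0) 1) = 2 * x (Sum.inr 0) + a * x (Sum.inr 1) := by
      show QuadraticMap.polar (Cfsg.quadFormMinus m F a b) x (Pi.single (Sum.inr 0) 1) = _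
      unfold QuadraticMap.polar Cfsg.quadFormMinus
      simp
      ring
    have e1 : QuadraticMap.polar (Cfsg.Agent.Lib.Helper44.NegPairs.minusQ m F a b) x
        (Pi.single (Sum.inr 1) 1) = a * x (Sum.inr 0) + 2 * b * x (Sum.inr 1) := by
      show QuadraticMap.polar (Cfsg.quadFormMinus m F a b) x (Pi.single (Sum.inr 1) 1) = _
      unfold QuadraticMap.polar Cfsg.quadFormMinus
      simp
      ring
    rw [e0, h2, zero_mul, zero_add] at h0
    rw [e1, h2, zero_mul, zero_mul, add_zero] at h1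
    have z1 : x (Sum.inr 1) = 0 := (mul_eq_zero.mp h0).resolve_left ha
    have z0 : x (Sum.inr 0) = 0 := (mul_eq_zero.mp h1).resolve_left ha
    rcases k with c | t
    · exact absurd ⟨c, rfl⟩ hk
    · fin_cases t
      · exact z0
      · exact z1
  · exact Cfsg.Agent.Lib.Helper44.NegPairs.sep_minusQ h2 m a b hab

theorem main (hOO : Cfsg.Agent.Lib.Helper41.TMStmt.OddOmega.{u}) :
    Cfsg.Agent.Lib.Helper41.TMStmt.EltDim.{u} := by
  classical
  intro F _ _ a₀ b₀ hab p _ _ d hd r _ hr2 hrp b hb1 hble hcondb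
  have hr : r.Prime := Fact.out
  have hrodd : Odd r := hr.odd_of_ne_two hr2
  obtain ⟨c', hreal, hdeg, hnd⟩ := exists_block F p r hr hr2 hrp
  obtain ⟨hipos, hidvd⟩ := order_facts F p r hr hrp
  obtain ⟨i, hi⟩ : ∃ i, i = orderOf ((Fintype.card F : ℕ) : ZMod r) := ⟨_, rfl⟩
  rw [← hi] at hdeg hble hcondb hipos hidvd ⊢
  obtain ⟨t, ht'⟩ := hidvd
  have ht : t * i = r - 1 := by rw [ht', mul_comm]
  obtain ⟨c0, hc0⟩ : ∃ c0, c0 = cc i := ⟨_, rfl⟩
  rw [← hc0] at hdeg hble hcondb ⊢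
  have hc0even : Even c0 := by
    rw [hc0]
    unfold cc
    split_ifs with h
    · exact h
    · exact even_two_mul _
  obtain ⟨ι, _, _, s, N, hsc, hsr, hsN, hNdet⟩ := real_pow hreal b
  have hcard : Fintype.card ι = b * c0 := by
    have h1 := Matrix.charpoly_natDegree_eq_dim s
    rw [hsc, natDegree_pow, hdeg] at h1
    exact h1.symm
  have hbceven : Even (b * c0) := hc0even.mul_left b
  have hcardM : Fintype.card (Cfsg.Agent.Lib.Helper45.OMiStmt.M d) = 2 * d := by
    simp [Cfsg.Agent.Lib.Helper45.OMiStmt.M]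
    omega
  have hSQ : Cfsg.Agent.Lib.Helper44.QSpace.Sep
      (Cfsg.Agent.Lib.Helper44.NegPairs.minusQ (d - 1) F a₀ b₀) :=
    sep_minusQ_all (d - 1) a₀ b₀ hab
  have hSN : Cfsg.Agent.Lib.Helper44.QSpace.Sep (Cfsg.Agent.Lib.Helper44.OExt.qN N) :=
    Cfsg.Agent.Lib.Helper44.OExt.sep_qN hNdet
  have hLp : Prime (X - C (1 : F)) := (irreducible_X_sub_C 1).prime
  have hsL : ¬ (X - C (1 : F)) ∣ s.charpoly := by
    rw [hsc]
    intro h
    exact hnd (hLp.dvd_of_dvd_pow h)
  have hj : ∃ j : (ι → F) →ₗ[F] (Cfsg.Agent.Lib.Helper45.OMiStmt.M d → F), ∀ v,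
      Cfsg.Agent.Lib.Helper44.NegPairs.minusQ (d - 1) F a₀ b₀ (j v) =
        Cfsg.Agent.Lib.Helper44.OExt.qN N v := by
    rcases Nat.lt_or_ge (b * c0) (2 * d) with hlt | hge
    · obtain ⟨k', hk'⟩ := hbceven
      exact Cfsg.Agent.Lib.Helper44.OEmb.exists_embedding (F := F) k' (ι → F)
        (Cfsg.Agent.Lib.Helper44.OExt.qN N) (Cfsg.Agent.Lib.Helper45.OMiStmt.M d → F)
        (Cfsg.Agent.Lib.Helper44.NegPairs.minusQ (d - 1) F a₀ b₀)
        (by rw [Module.finrank_fintype_fun_eq_card, hcard]; omega)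
        (by rw [Module.finrank_fintype_fun_eq_card, Module.finrank_fintype_fun_eq_card, hcard,
              hcardM]; omega) hSN hSQ
    · have heq : b * c0 = 2 * d := le_antisymm hble hge
      obtain ⟨hie, hbodd⟩ := hcondb heq
      have hc0i : c0 = i := by
        rw [hc0]
        unfold cc
        rw [if_pos hie]
      have hd1 : 2 * (d - 1 + 1) = 2 * d := by omega
      have hcond' : ¬ (Odd i ∨ Even (2 * (d - 1 + 1) / i)) := by
        rintro (h | h)
        · exact (Nat.not_even_iff_odd.mpr h) hie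
        · rw [hd1, ← heq, hc0i, Nat.mul_div_cancel _ hipos] at h
          exact (Nat.not_even_iff_odd.mpr hbodd) h
      have hcard' : Fintype.card ι = 2 * (d - 1 + 1) := by
        rw [hcard, hd1]
        exact heq
      have hobs := (Cfsg.Agent.Lib.Helper44.OTyp3.obs_matrix (p := p)
        (Cfsg.Agent.Lib.Helper44.OExt.qN N) hSN hcard' r i t hr hr2 hrp hi ht s hsr
        (fun u => Cfsg.Agent.Lib.Helper44.OExt.qN_isom hsN u) hsL).2 hcond'
      have hmi := Cfsg.Agent.Lib.Helper44.OTyp3.sing_minus (F := F) (d - 1) a₀ b₀ hab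
      have hq0 : 0 < Fintype.card F := Fintype.card_pos
      have hc : Nat.card {v : ι → F // Cfsg.Agent.Lib.Helper44.OExt.qN N v = 0} =
          Nat.card {v : (Fin (d - 1) ⊕ Fin (d - 1)) ⊕ Fin 2 → F //
            Cfsg.Agent.Lib.Helper44.NegPairs.minusQ (d - 1) F a₀ b₀ v = 0} := by
        apply Nat.eq_of_mul_eq_mul_right hq0
        rw [hobs, hmi]
      exact Cfsg.Agent.Lib.Helper44.OTyp1.exists_iso (Cfsg.Agent.Lib.Helper44.OExt.qN N)
        (Cfsg.Agent.Lib.Helper44.NegPairs.minusQ (d - 1) F a₀ b₀) hSN hSQ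
        (by rw [Module.finrank_fintype_fun_eq_card, hcard'])
        (by
          rw [Module.finrank_fintype_fun_eq_card]
          exact hcardM.trans hd1.symm) hc
  obtain ⟨j, hj⟩ := hj
  obtain ⟨g, hgiso, hgcp, hgr⟩ := Cfsg.Agent.Lib.Helper44.OExt.exists_ext
    (Cfsg.Agent.Lib.Helper44.NegPairs.minusQ (d - 1) F a₀ b₀) N s hNdet hsN r hr.pos hsr j hj
    (by rw [hcard, hcardM]; exact hble)
  have hr0 : (r : F) ≠ 0 := by
    rw [Ne, CharP.cast_eq_zero_iff F p]
    intro h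
    exact hrp ((Nat.prime_dvd_prime_iff_eq (Fact.out : p.Prime) hr).mp h).symm
  have hgrM : (g : Matrix (Cfsg.Agent.Lib.Helper45.OMiStmt.M d)
      (Cfsg.Agent.Lib.Helper45.OMiStmt.M d) F) ^ r = 1 := by
    rw [← Units.val_pow_eq_pow_val, hgr]
    rfl
  have hfix : Module.finrank F ↥(Cfsg.Agent.Lib.Helper45.OMiStmt.FxM
      (g : Matrix (Cfsg.Agent.Lib.Helper45.OMiStmt.M d) (Cfsg.Agent.Lib.Helper45.OMiStmt.M d) F))
      = 2 * d - b * c0 := by
    unfold Cfsg.Agent.Lib.Helper45.OMiStmt.FxM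
    rw [Cfsg.Agent.Lib.Helper8.OrdRElt.finrank_ker _ r hr0 hgrM, hgcp, hsc, hcard, hcardM]
    have hc'0 : c' ≠ 0 := by
      intro h
      exact hnd (h ▸ dvd_zero _)
    have hne : (X - C (1 : F)) ^ (2 * d - b * c0) * c' ^ b ≠ 0 :=
      mul_ne_zero (pow_ne_zero _ (X_sub_C_ne_zero 1)) (pow_ne_zero _ hc'0)
    rw [rootMultiplicity_mul hne, rootMultiplicity_X_sub_C_pow]
    have h3 : rootMultiplicity 1 (c' ^ b) = 0 := by
      apply rootMultiplicity_eq_zero
      intro hroot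
      have h4 : (X - C (1 : F)) ∣ c' ^ b := dvd_iff_isRoot.mpr hroot
      exact hnd (hLp.dvd_of_dvd_pow h4)
    rw [h3, add_zero]
  exact ⟨g, hOO F a₀ b₀ hab d hd r hrodd g hgiso hgr, hgr, hfix⟩

end Cfsg.Agent.Lib.Helper14.TMELTDIM
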