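import Mathlib
import Cfsg.Agent.Lib.Helper41.EMStmt
import Cfsg.Agent.Lib.Helper14.EPPELTE2
import Cfsg.Agent.Lib.Helper14.TMELTDIM
import Cfsg.Agent.Lib.Helper85.SqRank

/-!
# S5990 / C2DER (call by helper41; helper14)

Characteristic `2`, `d` odd, `4 ∣ m`: the Siegel involution of rank `d - 1` of the hyperbolic part
(`Helper14.EPPELTE2.main`), extended by the identity on `Fin 2`, lies in `Omega^-` and stabilises
no elliptic `m`-space (`Helper85.SqRank.split_facts`: the rank of `x - 1` on an invariant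
nondegenerate `W` is even, so `4 ∣ dim W` forces a totally singular subspace of half the dimension).
-/

set_option autoImplicit false

namespace Cfsg.Agent.Lib.Helper14.EMC2DER

open Matrix Module
open Cfsg.Agent.Lib.Helper94.OPStmt (P NP FxP)
open Cfsg.Agent.Lib.Helper45.OMiStmt (M Aniso FxM NDegM StabM)
open Cfsg.Agent.Lib.Helper41.EMStmt

universe u

section emb

variable {F : Type u} [Field F] {n : ℕ}

/-- extension by the identity on `Fin 2` -/
def ext2 (y : Matrix (P n) (P n) F) : Matrix (P n ⊕ Fin 2) (P n ⊕ Fin 2) F := fromBlocks y 0 0 1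

theorem ext2_mul (y z : Matrix (P n) (P n) F) : ext2 y * ext2 z = ext2 (y * z) := by
  unfold ext2
  rw [fromBlocks_multiply]
  simp

theorem ext2_one : ext2 (1 : Matrix (P n) (P n) F) = 1 := by
  unfold ext2
  exact fromBlocks_one

theorem ext2_mulVec (y : Matrix (P n) (P n) F) (v : P n ⊕ Fin 2 → F) :
    ext2 y *ᵥ v = Sum.elim (y *ᵥ (v ∘ Sum.inl)) (v ∘ Sum.inr) := by
  unfold ext2
  rw [fromBlocks_mulVec]
  simp

/-- extension by the identity on `Fin 2`, as a monoid hom on `GL` -/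
def embHom : Matrix.GeneralLinearGroup (P n) F →* Matrix.GeneralLinearGroup (P n ⊕ Fin 2) F where
  toFun y := ⟨ext2 (y : Matrix (P n) (P n) F),
    ext2 ((y⁻¹ : Matrix.GeneralLinearGroup (P n) F) : Matrix (P n) (P n) F),
    by rw [ext2_mul, ← Units.val_mul, mul_inv_cancel, Units.val_one, ext2_one],
    by rw [ext2_mul, ← Units.val_mul, inv_mul_cancel, Units.val_one, ext2_one]⟩
  map_one' := by
    apply Units.ext
    show ext2 ((1 : Matrix.GeneralLinearGroup (P n) F) : Matrix (P n) (P n) F) = 1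
    rw [Units.val_one, ext2_one]
  map_mul' y z := by
    apply Units.ext
    show ext2 ((y * z : Matrix.GeneralLinearGroup (P n) F) : Matrix (P n) (P n) F)
      = ext2 (y : Matrix (P n) (P n) F) * ext2 (z : Matrix (P n) (P n) F)
    rw [Units.val_mul, ext2_mul]

theorem embHom_val (y : Matrix.GeneralLinearGroup (P n) F) :
    ((embHom y : Matrix.GeneralLinearGroup (P n ⊕ Fin 2) F) : Matrix (P n ⊕ Fin 2) (P n ⊕ Fin 2) F)
      = ext2 (y : Matrix (P n) (P n) F) := rfl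

theorem Qm_split (a b : F) (v : P n ⊕ Fin 2 → F) :
    Cfsg.quadFormMinus n F a b v = Cfsg.quadFormPlus n F (v ∘ Sum.inl)
      + (v (Sum.inr 0) ^ 2 + a * v (Sum.inr 0) * v (Sum.inr 1) + b * v (Sum.inr 1) ^ 2) := rfl

theorem emb_iso (a b : F) (y : Matrix.GeneralLinearGroup (P n) F)
    (hy : y ∈ Cfsg.isometryGroup F (Cfsg.quadFormPlus n F)) :
    embHom y ∈ Cfsg.isometryGroup F (Cfsg.quadFormMinus n F a b) := by
  intro u v
  show Cfsg.quadFormMinus n F a b (ext2 (y : Matrix (P n) (P n) F) *ᵥ u)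
    = Cfsg.quadFormMinus n F a b u
  rw [Qm_split, Qm_split, ext2_mulVec]
  have h' : Cfsg.quadFormPlus n F ((y : Matrix (P n) (P n) F) *ᵥ (u ∘ Sum.inl))
      = Cfsg.quadFormPlus n F (u ∘ Sum.inl) := hy (u ∘ Sum.inl) (u ∘ Sum.inl)
  rw [Sum.elim_comp_inl, h']
  rfl

theorem emb_omega (a b : F) (y : Matrix.GeneralLinearGroup (P n) F)
    (hy : y ∈ Cfsg.Geo.omegaGL (Cfsg.quadFormPlus n F)) :
    embHom y ∈ Cfsg.Geo.omegaGL (Cfsg.quadFormMinus n F a b) := by
  obtain ⟨g, hg, rfl⟩ := hy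
  obtain ⟨φ, hφ⟩ : ∃ φ : ↥(Cfsg.isometryGroup F (Cfsg.quadFormPlus n F)) →*
      ↥(Cfsg.isometryGroup F (Cfsg.quadFormMinus n F a b)),
      ∀ t, ((φ t : ↥(Cfsg.isometryGroup F (Cfsg.quadFormMinus n F a b))) :
        Matrix.GeneralLinearGroup (P n ⊕ Fin 2) F)
        = embHom (t : Matrix.GeneralLinearGroup (P n) F) :=
    ⟨(embHom.comp (Cfsg.isometryGroup F (Cfsg.quadFormPlus n F)).subtype).codRestrict _
      (fun t => emb_iso a b t.1 t.2), fun t => rfl⟩
  refine ⟨φ g, ?_, hφ g⟩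
  have h1 : φ g ∈ Subgroup.map φ (commutator ↥(Cfsg.isometryGroup F (Cfsg.quadFormPlus n F))) :=
    Subgroup.mem_map_of_mem φ hg
  rw [commutator_def, Subgroup.map_commutator] at h1
  exact Subgroup.commutator_mono le_top le_top h1

end emb

theorem main : C2Der.{u} := by
  intro F _ _ a₀ b₀ hAn _ d m hd hdodd hm2 hm4 hmd
  classical
  have hn3 : 3 ≤ d - 1 := by omega
  have hneven : Even (d - 1) := by
    obtain ⟨k, hk⟩ := hdodd
    exact ⟨k, by omega⟩
  obtain ⟨y, hyΩ, hyy, hyns, -, hyQ0, hyfin⟩ :=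
    Cfsg.Agent.Lib.Helper14.EPPELTE2.main F (d - 1) (d - 1) hn3 hneven (by omega) le_rfl
  have hyiso : y ∈ Cfsg.isometryGroup F (Cfsg.quadFormPlus (d - 1) F) := by
    obtain ⟨g, -, hg⟩ := hyΩ
    rw [← hg]
    exact g.2
  obtain ⟨x, hx⟩ : ∃ x : Matrix.GeneralLinearGroup (M d) F, x = embHom y := ⟨_, rfl⟩
  have hxmat : (x : Matrix (M d) (M d) F) = ext2 (y : Matrix (P (d - 1)) (P (d - 1)) F) := by
    rw [hx]
    rfl
  have hxΩ : x ∈ Cfsg.Geo.omegaGL (Cfsg.quadFormMinus (d - 1) F a₀ b₀) := by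
    rw [hx]
    exact emb_omega a₀ b₀ y hyΩ
  have hxiso : x ∈ Cfsg.isometryGroup F (Cfsg.quadFormMinus (d - 1) F a₀ b₀) := by
    rw [hx]
    exact emb_iso a₀ b₀ y hyiso
  have hxx : (x : Matrix (M d) (M d) F) * (x : Matrix (M d) (M d) F) = 1 := by
    rw [hxmat, ext2_mul, hyy, ext2_one]
  have hns : ∀ z : F, (x : Matrix (M d) (M d) F) ≠ z • (1 : Matrix (M d) (M d) F) := by
    intro z hz
    apply hyns z
    ext i j
    have h := congrFun (congrFun hz (Sum.inl i)) (Sum.inl j)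
    rw [hxmat] at h
    simpa [ext2, Matrix.one_apply, Matrix.smul_apply] using h
  have hNv : ∀ v : M d → F, (x : Matrix (M d) (M d) F) *ᵥ v - v
      = Sum.elim (NP (y : Matrix (P (d - 1)) (P (d - 1)) F) (v ∘ Sum.inl)) 0 := by
    intro v
    rw [hxmat, ext2_mulVec]
    funext i
    rcases i with i | i
    · simp [NP]
    · simp
  refine ⟨x, hxΩ, hxx, hns, ?_⟩
  rintro W ⟨hWdim, hWnd, hWnp⟩ hStab
  apply hWnp
  have hS : Cfsg.Agent.Lib.Helper44.QSpace.Sep
      (Cfsg.Agent.Lib.Helper44.NegPairs.minusQ (d - 1) F a₀ b₀) :=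
    Cfsg.Agent.Lib.Helper14.TMELTDIM.sep_minusQ_all (d - 1) a₀ b₀ hAn
  have hA : ∀ v, Cfsg.Agent.Lib.Helper44.NegPairs.minusQ (d - 1) F a₀ b₀
      (Matrix.toLin' (x : Matrix (M d) (M d) F) v)
      = Cfsg.Agent.Lib.Helper44.NegPairs.minusQ (d - 1) F a₀ b₀ v := by
    intro v
    rw [Matrix.toLin'_apply]
    exact hxiso v v
  have hQ0 : ∀ v, Cfsg.Agent.Lib.Helper44.NegPairs.minusQ (d - 1) F a₀ b₀
      ((Matrix.toLin' (x : Matrix (M d) (M d) F) - LinearMap.id : (M d → F) →ₗ[F] (M d → F)) v)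
      = 0 := by
    intro v
    rw [LinearMap.sub_apply, Matrix.toLin'_apply, LinearMap.id_apply, hNv]
    show Cfsg.quadFormMinus (d - 1) F a₀ b₀ _ = 0
    rw [Qm_split, Sum.elim_comp_inl, hyQ0]
    simp
  have hWnd' : Cfsg.Agent.Lib.Helper44.WittND.NDsub
      (Cfsg.Agent.Lib.Helper44.NegPairs.minusQ (d - 1) F a₀ b₀) W := by
    intro t ht htz
    by_contra ht0
    obtain ⟨-, z, hz, hz0⟩ := hWnd t ht ht0
    exact hz0 (htz z hz)
  have hAW : ∀ w ∈ W, Matrix.toLin' (x : Matrix (M d) (M d) F) w ∈ W := by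
    intro w hw
    exact hStab (Submodule.mem_map_of_mem hw)
  obtain ⟨W', T, T', -, -, -, hdimsum, -, hTW, -, hTs, -, hTe, hT'e, h2T, h2T', hrank⟩ :=
    Cfsg.Agent.Lib.Helper85.SqRank.split_facts _ hS _ hA hQ0 W hWnd' hAW
  have hV : finrank F (M d → F) = 2 * d := by
    rw [Module.finrank_fintype_fun_eq_card, Fintype.card_sum, Fintype.card_sum, Fintype.card_fin,
      Fintype.card_fin]
    omega
  have hrk : d - 1 ≤ finrank F ↥(LinearMap.range
      (Matrix.toLin' (x : Matrix (M d) (M d) F) - LinearMap.id : (M d → F) →ₗ[F] (M d → F))) := by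
    obtain ⟨π, hπ⟩ : ∃ π : (M d → F) →ₗ[F] (P (d - 1) → F), ∀ v, π v = v ∘ Sum.inl :=
      ⟨LinearMap.funLeft F F Sum.inl, fun v => rfl⟩
    have hle : LinearMap.range (NP (y : Matrix (P (d - 1)) (P (d - 1)) F))
        ≤ (LinearMap.range (Matrix.toLin' (x : Matrix (M d) (M d) F) - LinearMap.id :
            (M d → F) →ₗ[F] (M d → F))).map π := by
      rintro _ ⟨w, rfl⟩
      refine ⟨_, ⟨Sum.elim w 0, rfl⟩, ?_⟩
      rw [hπ, LinearMap.sub_apply, Matrix.toLin'_apply, LinearMap.id_apply, hNv]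
      rfl
    have h5 := (Submodule.finrank_mono hle).trans (Submodule.finrank_map_le π _)
    rw [hyfin] at h5
    exact h5
  rw [hV] at hdimsum
  have h6 : d - 1 ≤ finrank F ↥T + finrank F ↥T' := le_trans hrk hrank
  obtain ⟨t, ht⟩ := hTe
  obtain ⟨t', ht'⟩ := hT'e
  have e1 : 2 * finrank F ↥T ≤ finrank F ↥W := h2T
  have e2 : 2 * finrank F ↥T' ≤ finrank F ↥W' := h2T'
  have e3 : finrank F ↥W' + finrank F ↥W = 2 * d := hdimsum
  have e4 : finrank F ↥T = t + t := ht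
  have e5 : finrank F ↥T' = t' + t' := ht'
  have e6 : d - 1 ≤ finrank F ↥T + finrank F ↥T' := h6
  have e7 : finrank F ↥W = m := hWdim
  have hfin2 : 2 * finrank F ↥T = finrank F ↥W := by
    clear h2T h2T' hdimsum ht ht' h6 hWdim hrank hrk
    omega
  exact ⟨T, hTW, fun w hw => hTs w hw, hfin2⟩

end Cfsg.Agent.Lib.Helper14.EMC2DER
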