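import Mathlib
import Cfsg.Agent.Lib.Helper14.Klein
import Cfsg.Agent.Lib.Helper38.SLCard
import Cfsg.Agent.Lib.Helper53.SylowConj

set_option autoImplicit false

/-!
# Conjugacy classes of Klein four-subgroups of `PSL₂(F)`, `F` finite of odd order
-/

namespace Cfsg.Agent.Lib.Helper14.Klein2

open Matrix Cfsg.Agent.Lib.Helper53.SL2Inv Cfsg.Agent.Lib.Helper14.Klein

section General

variable {G : Type*} [Group G]

theorem kleinOf_conj (a b : G) (haa : a * a = 1) (hbb : b * b = 1) (hab : a * b = b * a) (γ : G)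
    (a' b' : G) (ha' : a' = γ * a * γ⁻¹) (hb' : b' = γ * b * γ⁻¹)
    (haa' : a' * a' = 1) (hbb' : b' * b' = 1) (hab' : a' * b' = b' * a') :
    kleinOf a' b' haa' hbb' hab' = (kleinOf a b haa hbb hab).map (MulAut.conj γ).toMonoidHom := by
  subst ha' hb'
  ext z
  rw [Cfsg.Agent.Lib.Helper53.SylowConj.mem_map_conj_iff, mem_kleinOf, mem_kleinOf]
  have e : ∀ w, z = γ * w * γ⁻¹ ↔ γ⁻¹ * z * γ = w := fun w =>
    ⟨fun h => by rw [h]; group, fun h => by rw [← h]; group⟩
  have e1 : z = 1 ↔ γ⁻¹ * z * γ = 1 := by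
    have := e 1
    rw [mul_one, mul_inv_cancel] at this
    exact this
  have e4 : z = γ * a * γ⁻¹ * (γ * b * γ⁻¹) ↔ γ⁻¹ * z * γ = a * b := by
    rw [← e (a * b)]
    have : γ * a * γ⁻¹ * (γ * b * γ⁻¹) = γ * (a * b) * γ⁻¹ := by group
    rw [this]
  rw [e1, e a, e b, e4]

end General

variable {F : Type*} [Field F]

/-- simultaneous conjugacy of pairs -/
def ConjP (p p' : SpecialLinearGroup (Fin 2) F × SpecialLinearGroup (Fin 2) F) : Prop :=
  ∃ g : SpecialLinearGroup (Fin 2) F, g * p.1 * g⁻¹ = p'.1 ∧ g * p.2 * g⁻¹ = p'.2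

theorem ConjP.refl (p : SpecialLinearGroup (Fin 2) F × SpecialLinearGroup (Fin 2) F) :
    ConjP p p := ⟨1, by simp, by simp⟩

theorem ConjP.symm {p p' : SpecialLinearGroup (Fin 2) F × SpecialLinearGroup (Fin 2) F}
    (h : ConjP p p') : ConjP p' p := by
  obtain ⟨g, h1, h2⟩ := h
  exact ⟨g⁻¹, by rw [← h1]; group, by rw [← h2]; group⟩

theorem ConjP.trans {p p' p'' : SpecialLinearGroup (Fin 2) F × SpecialLinearGroup (Fin 2) F}
    (h : ConjP p p') (h' : ConjP p' p'') : ConjP p p'' := by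
  obtain ⟨g, h1, h2⟩ := h
  obtain ⟨g', h1', h2'⟩ := h'
  exact ⟨g' * g, by rw [← h1', ← h1]; group, by rw [← h2', ← h2]; group⟩

theorem conj_negOne (g : SpecialLinearGroup (Fin 2) F) : g * negOne * g⁻¹ = negOne := by
  rw [Cfsg.Agent.S0809.negOne_comm, mul_assoc, mul_inv_cancel, mul_one]

theorem ConjP.mem {p p' : SpecialLinearGroup (Fin 2) F × SpecialLinearGroup (Fin 2) F}
    (h : ConjP p p') (hp : p.1 * p.1 = negOne ∧ p.1 * p.2 * p.1 = p.2) :
    p'.1 * p'.1 = negOne ∧ p'.1 * p'.2 * p'.1 = p'.2 := by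
  obtain ⟨g, h1, h2⟩ := h
  constructor
  · rw [← h1]
    have : g * p.1 * g⁻¹ * (g * p.1 * g⁻¹) = g * (p.1 * p.1) * g⁻¹ := by group
    rw [this, hp.1, conj_negOne]
  · rw [← h1, ← h2]
    have : g * p.1 * g⁻¹ * (g * p.2 * g⁻¹) * (g * p.1 * g⁻¹) = g * (p.1 * p.2 * p.1) * g⁻¹ := by
      group
    rw [this, hp.2]

theorem conjP_of_conj (h : SpecialLinearGroup (Fin 2) F)
    (p p' : SpecialLinearGroup (Fin 2) F × SpecialLinearGroup (Fin 2) F)
    (H : ConjP (h * p.1 * h⁻¹, h * p.2 * h⁻¹) (h * p'.1 * h⁻¹, h * p'.2 * h⁻¹)) : ConjP p p' := by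
  obtain ⟨g, e1, e2⟩ := H
  simp only at e1 e2
  refine ⟨h⁻¹ * g * h, ?_, ?_⟩
  · have : h⁻¹ * g * h * p.1 * (h⁻¹ * g * h)⁻¹ = h⁻¹ * (g * (h * p.1 * h⁻¹) * g⁻¹) * h := by group
    rw [this, e1]; group
  · have : h⁻¹ * g * h * p.2 * (h⁻¹ * g * h)⁻¹ = h⁻¹ * (g * (h * p.2 * h⁻¹) * g⁻¹) * h := by group
    rw [this, e2]; group

/-- swapping the two entries, at `W`, when `2` is a square -/
theorem swap_W (β : F) (hβ : 2 * β ^ 2 = 1) (y : SpecialLinearGroup (Fin 2) F)
    (hy : W * y * W = y) : ConjP ((W : SpecialLinearGroup (Fin 2) F), y) (y, W) := by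
  obtain ⟨h1, h2⟩ := (Cfsg.Agent.S0809.anti_iff y).mp hy
  have hdet := det_entries y
  rw [h1, h2] at hdet
  have hg : (β * y 0 0) * (-(β * y 0 0)) - (β * (y 0 1 - 1)) * (β * (y 0 1 + 1)) = 1 := by
    linear_combination β ^ 2 * hdet + hβ
  obtain ⟨g00, g01, g10, g11⟩ := Cfsg.Agent.S0809.mk2_entries _ _ _ _ hg
  obtain ⟨w00, w01, w10, w11⟩ := W_entries (F := F)
  refine ⟨Cfsg.Agent.S0809.mk2 _ _ _ _ hg, ?_, ?_⟩
  · show Cfsg.Agent.S0809.mk2 _ _ _ _ hg * W * (Cfsg.Agent.S0809.mk2 _ _ _ _ hg)⁻¹ = y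
    rw [mul_inv_eq_iff_eq_mul]
    obtain ⟨l00, l01, l10, l11⟩ := mul_entries (Cfsg.Agent.S0809.mk2 _ _ _ _ hg) W
    obtain ⟨r00, r01, r10, r11⟩ := mul_entries y (Cfsg.Agent.S0809.mk2 _ _ _ _ hg)
    apply ext2
    · rw [l00, r00, g00, g01, g10, w00, w10]
      first | ring1 | linear_combination β * hdet | linear_combination (-β) * hdet
    · rw [l01, r01, g00, g01, g11, w01, w11]
      first | ring1 | linear_combination β * hdet | linear_combination (-β) * hdet
    · rw [l10, r10, g10, g11, g00, w00, w10, h1, h2]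
      first | ring1 | linear_combination β * hdet | linear_combination (-β) * hdet
    · rw [l11, r11, g10, g11, g01, w01, w11, h1, h2]
      first | ring1 | linear_combination β * hdet | linear_combination (-β) * hdet
  · show Cfsg.Agent.S0809.mk2 _ _ _ _ hg * y * (Cfsg.Agent.S0809.mk2 _ _ _ _ hg)⁻¹ = W
    rw [mul_inv_eq_iff_eq_mul]
    obtain ⟨l00, l01, l10, l11⟩ := mul_entries (Cfsg.Agent.S0809.mk2 _ _ _ _ hg) y
    obtain ⟨r00, r01, r10, r11⟩ := mul_entries W (Cfsg.Agent.S0809.mk2 _ _ _ _ hg)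
    apply ext2
    · rw [l00, r00, g00, g01, g10, w00, w01, h1]
      first | ring1 | linear_combination β * hdet | linear_combination (-β) * hdet
    · rw [l01, r01, g00, g01, g11, w00, w01, h2]
      first | ring1 | linear_combination β * hdet | linear_combination (-β) * hdet
    · rw [l10, r10, g10, g11, g00, w10, w11, h1]
      first | ring1 | linear_combination β * hdet | linear_combination (-β) * hdet
    · rw [l11, r11, g10, g11, g01, w10, w11, h2]
      first | ring1 | linear_combination β * hdet | linear_combination (-β) * hdet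

/-- cyclic relabelling, at `W` -/
theorem cyc_W (h : F) (hh : 2 * h = 1) (y : SpecialLinearGroup (Fin 2) F)
    (hy : W * y * W = y) : ConjP ((W : SpecialLinearGroup (Fin 2) F), y) (y, W * y) := by
  obtain ⟨h1, h2⟩ := (Cfsg.Agent.S0809.anti_iff y).mp hy
  have hdet := det_entries y
  rw [h1, h2] at hdet
  have hg : (h * (1 + y 0 0 - y 0 1)) * (h * (1 - y 0 0 + y 0 1)) -
      (h * (y 0 0 + y 0 1 - 1)) * (h * (1 + y 0 0 + y 0 1)) = 1 := by
    linear_combination 2 * h ^ 2 * hdet + (2 * h + 1) * hh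
  obtain ⟨g00, g01, g10, g11⟩ := Cfsg.Agent.S0809.mk2_entries _ _ _ _ hg
  obtain ⟨w00, w01, w10, w11⟩ := W_entries (F := F)
  obtain ⟨wy00, wy01, wy10, wy11⟩ := mul_entries W y
  rw [w00, w01, h1] at wy00
  rw [w00, w01, h2] at wy01
  rw [w10, w11] at wy10 wy11
  refine ⟨Cfsg.Agent.S0809.mk2 _ _ _ _ hg, ?_, ?_⟩
  · show Cfsg.Agent.S0809.mk2 _ _ _ _ hg * W * (Cfsg.Agent.S0809.mk2 _ _ _ _ hg)⁻¹ = y
    rw [mul_inv_eq_iff_eq_mul]
    obtain ⟨l00, l01, l10, l11⟩ := mul_entries (Cfsg.Agent.S0809.mk2 _ _ _ _ hg) W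
    obtain ⟨r00, r01, r10, r11⟩ := mul_entries y (Cfsg.Agent.S0809.mk2 _ _ _ _ hg)
    apply ext2
    · rw [l00, r00, g00, g01, g10, w00, w10]
      first | ring1 | linear_combination h * hdet | linear_combination (-h) * hdet
    · rw [l01, r01, g00, g01, g11, w01, w11]
      first | ring1 | linear_combination h * hdet | linear_combination (-h) * hdet
    · rw [l10, r10, g10, g11, g00, w00, w10, h1, h2]
      first | ring1 | linear_combination h * hdet | linear_combination (-h) * hdet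
    · rw [l11, r11, g10, g11, g01, w01, w11, h1, h2]
      first | ring1 | linear_combination h * hdet | linear_combination (-h) * hdet
  · show Cfsg.Agent.S0809.mk2 _ _ _ _ hg * y * (Cfsg.Agent.S0809.mk2 _ _ _ _ hg)⁻¹ = W * y
    rw [mul_inv_eq_iff_eq_mul]
    obtain ⟨l00, l01, l10, l11⟩ := mul_entries (Cfsg.Agent.S0809.mk2 _ _ _ _ hg) y
    obtain ⟨r00, r01, r10, r11⟩ := mul_entries (W * y) (Cfsg.Agent.S0809.mk2 _ _ _ _ hg)
    apply ext2
    · rw [l00, r00, g00, g01, g10, wy00, wy01, h1]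
      first | ring1 | linear_combination h * hdet | linear_combination (-h) * hdet
    · rw [l01, r01, g00, g01, g11, wy00, wy01, h2]
      first | ring1 | linear_combination h * hdet | linear_combination (-h) * hdet
    · rw [l10, r10, g10, g11, g00, wy10, wy11, h1]
      first | ring1 | linear_combination h * hdet | linear_combination (-h) * hdet
    · rw [l11, r11, g10, g11, g01, wy10, wy11, h2]
      first | ring1 | linear_combination h * hdet | linear_combination (-h) * hdet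

variable [Fintype F]

/-- an element commuting with both members of an anticommuting pair is `±1` -/
theorem cent_pair (hodd : Odd (Fintype.card F)) (x y : SpecialLinearGroup (Fin 2) F)
    (hx : x * x = negOne) (hxy : x * y * x = y) (g : SpecialLinearGroup (Fin 2) F)
    (h1 : g * x = x * g) (h2 : g * y = y * g) : g = 1 ∨ g = negOne := by
  have h2F := two_ne_zero_of_odd hodd
  obtain ⟨h, hh⟩ := conj_W_of_sq hodd x hx
  have hW : (h * g * h⁻¹) * W = W * (h * g * h⁻¹) := by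
    rw [← hh]
    have e1 : h * g * h⁻¹ * (h * x * h⁻¹) = h * (g * x) * h⁻¹ := by group
    have e2 : h * x * h⁻¹ * (h * g * h⁻¹) = h * (x * g) * h⁻¹ := by group
    rw [e1, e2, h1]
  have hy' : W * (h * y * h⁻¹) * W = h * y * h⁻¹ := by
    rw [← hh]
    have : h * x * h⁻¹ * (h * y * h⁻¹) * (h * x * h⁻¹) = h * (x * y * x) * h⁻¹ := by group
    rw [this, hxy]
  have hc : (h * g * h⁻¹) * (h * y * h⁻¹) = (h * y * h⁻¹) * (h * g * h⁻¹) := by
    have e1 : h * g * h⁻¹ * (h * y * h⁻¹) = h * (g * y) * h⁻¹ := by group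
    have e2 : h * y * h⁻¹ * (h * g * h⁻¹) = h * (y * g) * h⁻¹ := by group
    rw [e1, e2, h2]
  obtain ⟨c1, c2⟩ := (Cfsg.Agent.S0809.cent_iff _).mp hW
  obtain ⟨a1, a2⟩ := (Cfsg.Agent.S0809.anti_iff _).mp hy'
  obtain ⟨l00, l01, l10, l11⟩ := mul_entries (h * g * h⁻¹) (h * y * h⁻¹)
  obtain ⟨r00, r01, r10, r11⟩ := mul_entries (h * y * h⁻¹) (h * g * h⁻¹)
  have hdy := det_entries (h * y * h⁻¹)
  have hdg := det_entries (h * g * h⁻¹)
  rw [a1, a2] at hdy
  rw [c1, c2] at hdg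
  have e00 : (h * g * h⁻¹) 0 0 * (h * y * h⁻¹) 0 0 + (h * g * h⁻¹) 0 1 * (h * y * h⁻¹) 1 0 =
      (h * y * h⁻¹) 0 0 * (h * g * h⁻¹) 0 0 + (h * y * h⁻¹) 0 1 * (h * g * h⁻¹) 1 0 := by
    rw [← l00, ← r00, hc]
  have e01 : (h * g * h⁻¹) 0 0 * (h * y * h⁻¹) 0 1 + (h * g * h⁻¹) 0 1 * (h * y * h⁻¹) 1 1 =
      (h * y * h⁻¹) 0 0 * (h * g * h⁻¹) 0 1 + (h * y * h⁻¹) 0 1 * (h * g * h⁻¹) 1 1 := by
    rw [← l01, ← r01, hc]
  rw [a1, c1] at e00
  rw [a2, c2] at e01
  have hbd : (h * g * h⁻¹) 0 1 * (h * y * h⁻¹) 0 1 = 0 := by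
    have : (2 : F) * ((h * g * h⁻¹) 0 1 * (h * y * h⁻¹) 0 1) = 0 := by linear_combination e00
    exact (mul_eq_zero.mp this).resolve_left h2F
  have hbc : (h * g * h⁻¹) 0 1 * (h * y * h⁻¹) 0 0 = 0 := by
    have : (2 : F) * ((h * g * h⁻¹) 0 1 * (h * y * h⁻¹) 0 0) = 0 := by linear_combination -e01
    exact (mul_eq_zero.mp this).resolve_left h2F
  have hb : (h * g * h⁻¹) 0 1 = 0 := by
    linear_combination (-((h * g * h⁻¹) 0 1)) * hdy - (h * y * h⁻¹) 0 0 * hbc -
      (h * y * h⁻¹) 0 1 * hbd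
  rw [hb] at hdg c1
  have ha : ((h * g * h⁻¹) 0 0 - 1) * ((h * g * h⁻¹) 0 0 + 1) = 0 := by linear_combination hdg
  obtain ⟨n00, n01, n10, n11⟩ := negOne_entries (F := F)
  obtain ⟨o00, o01, o10, o11⟩ := one_entries (F := F)
  rcases mul_eq_zero.mp ha with ha | ha
  · left
    have h00 : (h * g * h⁻¹) 0 0 = 1 := by linear_combination ha
    have : h * g * h⁻¹ = 1 := by
      apply ext2
      · rw [h00, o00]
      · rw [hb, o01]
      · rw [c1, o10, neg_zero]
      · rw [c2, h00, o11]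
    have hg : g = h⁻¹ * (h * g * h⁻¹) * h := by group
    rw [hg, this]; group
  · right
    have h00 : (h * g * h⁻¹) 0 0 = -1 := by linear_combination ha
    have : h * g * h⁻¹ = negOne := by
      apply ext2
      · rw [h00, n00]
      · rw [hb, n01]
      · rw [c1, n10, neg_zero]
      · rw [c2, h00, n11]
    have hg : g = h⁻¹ * (h * g * h⁻¹) * h := by group
    rw [hg, this, mul_assoc, negOne_mul_comm, inv_mul_cancel_left]

/-- the conjugate of a pair -/
def conjPair (g : SpecialLinearGroup (Fin 2) F) (p : Pairs F) : Pairs F :=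
  ⟨(g * p.1.1 * g⁻¹, g * p.1.2 * g⁻¹), ConjP.mem (p := p.1) ⟨g, rfl, rfl⟩ p.2⟩

theorem conjP_conjPair (g : SpecialLinearGroup (Fin 2) F) (p : Pairs F) :
    ConjP p.1 (conjPair g p).1 := ⟨g, rfl, rfl⟩

theorem conjPair_eq_iff (hodd : Odd (Fintype.card F)) (p : Pairs F)
    (g g₀ : SpecialLinearGroup (Fin 2) F) :
    conjPair g p = conjPair g₀ p ↔ g = g₀ ∨ g = g₀ * negOne := by
  constructor
  · intro h
    have h1 : g * p.1.1 * g⁻¹ = g₀ * p.1.1 * g₀⁻¹ := congrArg (fun q : Pairs F => q.1.1) h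
    have h2 : g * p.1.2 * g⁻¹ = g₀ * p.1.2 * g₀⁻¹ := congrArg (fun q : Pairs F => q.1.2) h
    have c1 : (g₀⁻¹ * g) * p.1.1 = p.1.1 * (g₀⁻¹ * g) := by
      have : g₀⁻¹ * g * p.1.1 = g₀⁻¹ * (g * p.1.1 * g⁻¹) * g := by group
      rw [this, h1]; group
    have c2 : (g₀⁻¹ * g) * p.1.2 = p.1.2 * (g₀⁻¹ * g) := by
      have : g₀⁻¹ * g * p.1.2 = g₀⁻¹ * (g * p.1.2 * g⁻¹) * g := by group
      rw [this, h2]; group
    rcases cent_pair hodd p.1.1 p.1.2 p.2.1 p.2.2 _ c1 c2 with h' | h'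
    · left
      rw [inv_mul_eq_one] at h'
      exact h'.symm
    · right
      rw [inv_mul_eq_iff_eq_mul] at h'
      exact h'
  · rintro (rfl | rfl)
    · rfl
    · apply Subtype.ext
      apply Prod.ext
      · show g₀ * negOne * p.1.1 * (g₀ * negOne)⁻¹ = g₀ * p.1.1 * g₀⁻¹
        have : g₀ * negOne * p.1.1 * (g₀ * negOne)⁻¹ = g₀ * (negOne * p.1.1 * negOne⁻¹) * g₀⁻¹ := by
          group
        rw [this, negOne_mul_comm, mul_inv_cancel_right]
      · show g₀ * negOne * p.1.2 * (g₀ * negOne)⁻¹ = g₀ * p.1.2 * g₀⁻¹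
        have : g₀ * negOne * p.1.2 * (g₀ * negOne)⁻¹ = g₀ * (negOne * p.1.2 * negOne⁻¹) * g₀⁻¹ := by
          group
        rw [this, negOne_mul_comm, mul_inv_cancel_right]

/-- every conjugacy class of anticommuting pairs has `|SL₂|/2` elements -/
theorem card_orbit (hodd : Odd (Fintype.card F)) (p : Pairs F) :
    Nat.card (SpecialLinearGroup (Fin 2) F) =
      Nat.card {p' : Pairs F // ConjP p.1 p'.1} * 2 := by
  have h2F := two_ne_zero_of_odd hodd
  apply card_eq_mul_of_fiber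
    (fun g : SpecialLinearGroup (Fin 2) F =>
      (⟨conjPair g p, conjP_conjPair g p⟩ : {p' : Pairs F // ConjP p.1 p'.1}))
  rintro ⟨p', g₀, hg1, hg2⟩
  have hp' : p' = conjPair g₀ p := by
    apply Subtype.ext
    apply Prod.ext
    · exact hg1.symm
    · exact hg2.symm
  subst hp'
  have hset : {g : SpecialLinearGroup (Fin 2) F |
      (⟨conjPair g p, conjP_conjPair g p⟩ : {p' : Pairs F // ConjP p.1 p'.1}) =
        ⟨conjPair g₀ p, ⟨g₀, hg1, hg2⟩⟩} = {g₀, g₀ * negOne} := by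
    ext g
    simp only [Set.mem_ofPred_eq, Set.mem_insert_iff, Set.mem_singleton_iff]
    exact Subtype.mk_eq_mk.trans (conjPair_eq_iff hodd p g g₀)
  have hc : Nat.card {g : SpecialLinearGroup (Fin 2) F //
      (⟨conjPair g p, conjP_conjPair g p⟩ : {p' : Pairs F // ConjP p.1 p'.1}) =
        ⟨conjPair g₀ p, ⟨g₀, hg1, hg2⟩⟩} = Set.ncard {g : SpecialLinearGroup (Fin 2) F |
      (⟨conjPair g p, conjP_conjPair g p⟩ : {p' : Pairs F // ConjP p.1 p'.1}) =
        ⟨conjPair g₀ p, ⟨g₀, hg1, hg2⟩⟩} := rfl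
  rw [hc, hset, Set.ncard_pair]
  intro h
  have : (negOne : SpecialLinearGroup (Fin 2) F) = 1 := by
    have := mul_left_cancel (a := g₀) (b := 1) (c := negOne) (by rw [mul_one]; exact h)
    exact this.symm
  exact negOne_ne_one h2F this

theorem card_SL_pos : 0 < Nat.card (SpecialLinearGroup (Fin 2) F) := Nat.card_pos

/-- there are exactly two conjugacy classes of anticommuting pairs -/
theorem two_orbits (hodd : Odd (Fintype.card F)) (p₁ p₂ : Pairs F) (hne : ¬ ConjP p₁.1 p₂.1)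
    (p : Pairs F) : ConjP p₁.1 p.1 ∨ ConjP p₂.1 p.1 := by
  have h1 := card_orbit hodd p₁
  have h2 := card_orbit hodd p₂
  have h3 := card_pairs hodd
  have e1 : Nat.card {p' : Pairs F // ConjP p₁.1 p'.1} =
      Set.ncard {p' : Pairs F | ConjP p₁.1 p'.1} := rfl
  have e2 : Nat.card {p' : Pairs F // ConjP p₂.1 p'.1} =
      Set.ncard {p' : Pairs F | ConjP p₂.1 p'.1} := rfl
  have hdis : Disjoint {p' : Pairs F | ConjP p₁.1 p'.1} {p' : Pairs F | ConjP p₂.1 p'.1} := by
    rw [Set.disjoint_left]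
    intro q hq1 hq2
    exact hne (ConjP.trans hq1 (ConjP.symm hq2))
  have hu := Set.ncard_union_eq hdis
  have huniv : {p' : Pairs F | ConjP p₁.1 p'.1} ∪ {p' : Pairs F | ConjP p₂.1 p'.1} = Set.univ := by
    rw [Set.eq_univ_iff_ncard, hu, ← e1, ← e2, h3]
    omega
  have hp : p ∈ {p' : Pairs F | ConjP p₁.1 p'.1} ∪ {p' : Pairs F | ConjP p₂.1 p'.1} := by
    rw [huniv]; trivial
  exact hp

theorem exists_not_conj (hodd : Odd (Fintype.card F)) :
    ∃ p₁ p₂ : Pairs F, ¬ ConjP p₁.1 p₂.1 := by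
  have h3 := card_pairs hodd
  have hpos := card_SL_pos (F := F)
  have hne : Nonempty (Pairs F) := by
    rw [← Nat.card_pos_iff.trans ⟨fun h => h.1, fun h => ⟨h, inferInstance⟩⟩]
    omega
  obtain ⟨p₁⟩ := hne
  by_contra hcon
  push Not at hcon
  have h1 := card_orbit hodd p₁
  have e : Nat.card {p' : Pairs F // ConjP p₁.1 p'.1} = Nat.card (Pairs F) := by
    apply Nat.card_congr
    exact Equiv.subtypeUnivEquiv (fun q => hcon p₁ q)
  rw [e, h3] at h1
  omega

theorem y_inv_of_pair (hodd : Odd (Fintype.card F)) {x y : SpecialLinearGroup (Fin 2) F}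
    (hx : x * x = negOne) (hxy : x * y * x = y) : y * x * y = x := by
  have hy := anti_sq hodd x y hx hxy
  have hnn := negOne_mul_negOne (F := F)
  have h1 : y * x = x * y * negOne := by
    rw [anti_comm hx hxy, mul_assoc, hnn, mul_one]
  rw [h1, mul_assoc, negOne_mul_comm, ← mul_assoc, mul_assoc x, hy, mul_assoc, hnn, mul_one]

theorem sign1 {x y : SpecialLinearGroup (Fin 2) F} (hx : x * x = negOne) (hxy : x * y * x = y) :
    ConjP (x, y) (x, y * negOne) := by
  refine ⟨x, ?_, ?_⟩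
  · show x * x * x⁻¹ = x
    rw [mul_inv_cancel_right]
  · show x * y * x⁻¹ = y * negOne
    rw [x_inv hx, ← mul_assoc, hxy]

theorem sign2 (hodd : Odd (Fintype.card F)) {x y : SpecialLinearGroup (Fin 2) F}
    (hx : x * x = negOne) (hxy : x * y * x = y) : ConjP (x, y) (x * negOne, y) := by
  have hy := anti_sq hodd x y hx hxy
  refine ⟨y, ?_, ?_⟩
  · show y * x * y⁻¹ = x * negOne
    rw [x_inv hy, ← mul_assoc, y_inv_of_pair hodd hx hxy]
  · show y * y * y⁻¹ = y
    rw [mul_inv_cancel_right]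

theorem signs (hodd : Odd (Fintype.card F)) {u v : SpecialLinearGroup (Fin 2) F}
    (hu : u * u = negOne) (huv : u * v * u = v) (x' y' : SpecialLinearGroup (Fin 2) F)
    (h1 : x' = u ∨ x' = u * negOne) (h2 : y' = v ∨ y' = v * negOne) : ConjP (u, v) (x', y') := by
  have s1 := sign1 hu huv
  have m1 := ConjP.mem s1 ⟨hu, huv⟩
  rcases h1 with rfl | rfl <;> rcases h2 with rfl | rfl
  · exact ConjP.refl _
  · exact s1
  · exact sign2 hodd hu huv
  · exact ConjP.trans s1 (sign2 hodd m1.1 m1.2)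

theorem cyc_pair (hodd : Odd (Fintype.card F)) {x y : SpecialLinearGroup (Fin 2) F}
    (hx : x * x = negOne) (hxy : x * y * x = y) : ConjP (x, y) (y, x * y) := by
  have h2F := two_ne_zero_of_odd hodd
  obtain ⟨h, hh⟩ := conj_W_of_sq hodd x hx
  have hy' : W * (h * y * h⁻¹) * W = h * y * h⁻¹ := by
    rw [← hh]
    have : h * x * h⁻¹ * (h * y * h⁻¹) * (h * x * h⁻¹) = h * (x * y * x) * h⁻¹ := by group
    rw [this, hxy]
  apply conjP_of_conj h
  have e : h * (x * y) * h⁻¹ = W * (h * y * h⁻¹) := by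
    rw [← hh]; group
  show ConjP (h * x * h⁻¹, h * y * h⁻¹) (h * y * h⁻¹, h * (x * y) * h⁻¹)
  rw [hh, e]
  exact cyc_W (2⁻¹ : F) (mul_inv_cancel₀ h2F) _ hy'

theorem swap_pair (hodd : Odd (Fintype.card F)) (β : F) (hβ : 2 * β ^ 2 = 1)
    {x y : SpecialLinearGroup (Fin 2) F}
    (hx : x * x = negOne) (hxy : x * y * x = y) : ConjP (x, y) (y, x) := by
  obtain ⟨h, hh⟩ := conj_W_of_sq hodd x hx
  have hy' : W * (h * y * h⁻¹) * W = h * y * h⁻¹ := by
    rw [← hh]
    have : h * x * h⁻¹ * (h * y * h⁻¹) * (h * x * h⁻¹) = h * (x * y * x) * h⁻¹ := by group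
    rw [this, hxy]
  apply conjP_of_conj h
  show ConjP (h * x * h⁻¹, h * y * h⁻¹) (h * y * h⁻¹, h * x * h⁻¹)
  rw [hh]
  exact swap_W β hβ _ hy'

theorem relabel_aux (hodd : Odd (Fintype.card F)) (β : F) (hβ : 2 * β ^ 2 = 1)
    (x y x' y' : SpecialLinearGroup (Fin 2) F) (hx : x * x = negOne) (hxy : x * y * x = y)
    (hx'1 : (QuotientGroup.mk x' : Matrix.ProjectiveSpecialLinearGroup (Fin 2) F) ≠ 1)
    (hy'1 : (QuotientGroup.mk y' : Matrix.ProjectiveSpecialLinearGroup (Fin 2) F) ≠ 1)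
    (hne' : (QuotientGroup.mk x' : Matrix.ProjectiveSpecialLinearGroup (Fin 2) F) ≠
      QuotientGroup.mk y')
    (hmem1' : (QuotientGroup.mk x' : Matrix.ProjectiveSpecialLinearGroup (Fin 2) F) = 1 ∨
      (QuotientGroup.mk x' : Matrix.ProjectiveSpecialLinearGroup (Fin 2) F) = QuotientGroup.mk x ∨
      (QuotientGroup.mk x' : Matrix.ProjectiveSpecialLinearGroup (Fin 2) F) = QuotientGroup.mk y ∨
      (QuotientGroup.mk x' : Matrix.ProjectiveSpecialLinearGroup (Fin 2) F) =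
        QuotientGroup.mk (x * y))
    (hmem2' : (QuotientGroup.mk y' : Matrix.ProjectiveSpecialLinearGroup (Fin 2) F) = 1 ∨
      (QuotientGroup.mk y' : Matrix.ProjectiveSpecialLinearGroup (Fin 2) F) = QuotientGroup.mk x ∨
      (QuotientGroup.mk y' : Matrix.ProjectiveSpecialLinearGroup (Fin 2) F) = QuotientGroup.mk y ∨
      (QuotientGroup.mk y' : Matrix.ProjectiveSpecialLinearGroup (Fin 2) F) =
        QuotientGroup.mk (x * y)) :
    ConjP (x, y) (x', y') := by
  -- the six relabellings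
  have c_yxy : ConjP (x, y) (y, x * y) := cyc_pair hodd hx hxy
  have m_yxy := ConjP.mem c_yxy ⟨hx, hxy⟩
  have c_yx : ConjP (x, y) (y, x) := swap_pair hodd β hβ hx hxy
  have c_xyx : ConjP (x, y) (x * y, x) := by
    have := cyc_pair hodd m_yxy.1 m_yxy.2
    simp only at this
    rw [← mul_assoc, y_inv_of_pair hodd hx hxy] at this
    exact ConjP.trans c_yxy this
  have m_xyx := ConjP.mem c_xyx ⟨hx, hxy⟩
  have c_xyy : ConjP (x, y) (x * y, y) :=
    ConjP.trans c_yxy (swap_pair hodd β hβ m_yxy.1 m_yxy.2)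
  have c_xxy : ConjP (x, y) (x, x * y) :=
    ConjP.trans c_xyx (swap_pair hodd β hβ m_xyx.1 m_xyx.2)
  -- finishing a case
  have fin : ∀ u v : SpecialLinearGroup (Fin 2) F, ConjP (x, y) (u, v) →
      (QuotientGroup.mk u : Matrix.ProjectiveSpecialLinearGroup (Fin 2) F) = QuotientGroup.mk x' →
      (QuotientGroup.mk v : Matrix.ProjectiveSpecialLinearGroup (Fin 2) F) = QuotientGroup.mk y' →
      ConjP (x, y) (x', y') := by
    intro u v hc h1 h2
    have m := ConjP.mem hc ⟨hx, hxy⟩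
    exact ConjP.trans hc (signs hodd m.1 m.2 x' y' ((mk_eq_mk_iff u x').mp h1)
      ((mk_eq_mk_iff v y').mp h2))
  rcases hmem1' with h1 | h1 | h1 | h1
  · exact absurd h1 hx'1
  · rcases hmem2' with h2 | h2 | h2 | h2
    · exact absurd h2 hy'1
    · exact absurd (h1.trans h2.symm) hne'
    · exact fin x y (ConjP.refl _) h1.symm h2.symm
    · exact fin x (x * y) c_xxy h1.symm h2.symm
  · rcases hmem2' with h2 | h2 | h2 | h2
    · exact absurd h2 hy'1
    · exact fin y x c_yx h1.symm h2.symm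
    · exact absurd (h1.trans h2.symm) hne'
    · exact fin y (x * y) c_yxy h1.symm h2.symm
  · rcases hmem2' with h2 | h2 | h2 | h2
    · exact absurd h2 hy'1
    · exact fin (x * y) x c_xyx h1.symm h2.symm
    · exact fin (x * y) y c_xyy h1.symm h2.symm
    · exact absurd (h1.trans h2.symm) hne'

/-- when `2` is a square, two anticommuting pairs with the same four-group are conjugate -/
theorem relabel (hodd : Odd (Fintype.card F)) (β : F) (hβ : 2 * β ^ 2 = 1) (p p' : Pairs F)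
    (hkl : kl (proj hodd p) = kl (proj hodd p')) : ConjP p.1 p'.1 := by
  have hmem1 := fst_mem_kl (proj hodd p')
  have hmem2 := snd_mem_kl (proj hodd p')
  rw [← hkl] at hmem1 hmem2
  have hd' := (proj hodd p').2
  exact relabel_aux hodd β hβ p.1.1 p.1.2 p'.1.1 p'.1.2 p.2.1 p.2.2 hd'.1 hd'.2.1 hd'.2.2.1
    hmem1 hmem2

/-- conjugate pairs have conjugate four-groups -/
theorem kl_conj (hodd : Odd (Fintype.card F)) (p p' : Pairs F)
    (g : SpecialLinearGroup (Fin 2) F) (h1 : g * p.1.1 * g⁻¹ = p'.1.1)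
    (h2 : g * p.1.2 * g⁻¹ = p'.1.2) :
    (kl (proj hodd p')).1 = ((kl (proj hodd p)).1).map
      (MulAut.conj (QuotientGroup.mk g : Matrix.ProjectiveSpecialLinearGroup (Fin 2) F)).toMonoidHom := by
  refine kleinOf_conj (proj hodd p).1.1 (proj hodd p).1.2 (proj hodd p).2.2.2.2.1
    (proj hodd p).2.2.2.2.2.1 (proj hodd p).2.2.2.2.2.2 (QuotientGroup.mk g)
    (proj hodd p').1.1 (proj hodd p').1.2 ?_ ?_ (proj hodd p').2.2.2.2.1
    (proj hodd p').2.2.2.2.2.1 (proj hodd p').2.2.2.2.2.2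
  · show (QuotientGroup.mk p'.1.1 : Matrix.ProjectiveSpecialLinearGroup (Fin 2) F) =
      QuotientGroup.mk g * QuotientGroup.mk p.1.1 * (QuotientGroup.mk g)⁻¹
    rw [← h1]; rfl
  · show (QuotientGroup.mk p'.1.2 : Matrix.ProjectiveSpecialLinearGroup (Fin 2) F) =
      QuotientGroup.mk g * QuotientGroup.mk p.1.2 * (QuotientGroup.mk g)⁻¹
    rw [← h2]; rfl

/-- `2` a square: exactly two classes of four-groups -/
theorem two_classes (hodd : Odd (Fintype.card F)) (β : F) (hβ : 2 * β ^ 2 = 1) :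
    ∃ V₁ V₂ : Subgroup (Matrix.ProjectiveSpecialLinearGroup (Fin 2) F),
      IsKleinFour V₁ ∧ IsKleinFour V₂ ∧
      (¬ ∃ g : Matrix.ProjectiveSpecialLinearGroup (Fin 2) F,
        V₂ = V₁.map (MulAut.conj g).toMonoidHom) ∧
      ∀ W : Subgroup (Matrix.ProjectiveSpecialLinearGroup (Fin 2) F), IsKleinFour W →
        (∃ g : Matrix.ProjectiveSpecialLinearGroup (Fin 2) F,
          W = V₁.map (MulAut.conj g).toMonoidHom) ∨
        (∃ g : Matrix.ProjectiveSpecialLinearGroup (Fin 2) F,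
          W = V₂.map (MulAut.conj g).toMonoidHom) := by
  obtain ⟨p₁, p₂, hne⟩ := exists_not_conj hodd
  refine ⟨(kl (proj hodd p₁)).1, (kl (proj hodd p₂)).1, (kl (proj hodd p₁)).2,
    (kl (proj hodd p₂)).2, ?_, ?_⟩
  · rintro ⟨γ, hγ⟩
    obtain ⟨g, rfl⟩ := QuotientGroup.mk_surjective γ
    have h := kl_conj hodd p₁ (conjPair g p₁) g rfl rfl
    rw [← hγ] at h
    have h' : kl (proj hodd (conjPair g p₁)) = kl (proj hodd p₂) := Subtype.ext h
    have hc := relabel hodd β hβ _ _ h'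
    exact hne (ConjP.trans (conjP_conjPair g p₁) hc)
  · intro W hW
    have h6 := card_fiber_kl (⟨W, hW⟩ : {V : Subgroup
      (Matrix.ProjectiveSpecialLinearGroup (Fin 2) F) // IsKleinFour V})
    have hne6 : Nonempty {p : DPairs (Matrix.ProjectiveSpecialLinearGroup (Fin 2) F) //
        kl p = ⟨W, hW⟩} := by
      by_contra hcon
      rw [not_nonempty_iff] at hcon
      rw [Nat.card_of_isEmpty] at h6
      omega
    obtain ⟨d, hd⟩ := hne6
    have h4 := card_fiber_proj hodd d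
    have hne4 : Nonempty {p : Pairs F // proj hodd p = d} := by
      by_contra hcon
      rw [not_nonempty_iff] at hcon
      rw [Nat.card_of_isEmpty] at h4
      omega
    obtain ⟨p, hp⟩ := hne4
    have hW' : W = (kl (proj hodd p)).1 := by rw [hp, hd]
    rcases two_orbits hodd p₁ p₂ hne p with ⟨g, h1, h2⟩ | ⟨g, h1, h2⟩
    · left
      exact ⟨QuotientGroup.mk g, by rw [hW']; exact kl_conj hodd p₁ p g h1 h2⟩
    · right
      exact ⟨QuotientGroup.mk g, by rw [hW']; exact kl_conj hodd p₂ p g h1 h2⟩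

/-- `q ≡ 3, 5 (mod 8)`: the four-groups are the Sylow 2-subgroups, hence conjugate -/
theorem one_class (hodd : Odd (Fintype.card F))
    (hq : Fintype.card F % 8 = 3 ∨ Fintype.card F % 8 = 5)
    (V W : Subgroup (Matrix.ProjectiveSpecialLinearGroup (Fin 2) F)) (hV : IsKleinFour V)
    (hW : IsKleinFour W) :
    ∃ g : Matrix.ProjectiveSpecialLinearGroup (Fin 2) F,
      W = V.map (MulAut.conj g).toMonoidHom := by
  classical
  have h2F := two_ne_zero_of_odd hodd
  have hS := Cfsg.Agent.Lib.Helper38.SLCard.card_SL2 (F := F)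
  have hG := card_SL_eq (F := F) h2F
  have h16 : Fintype.card F % 16 = 3 ∨ Fintype.card F % 16 = 5 ∨ Fintype.card F % 16 = 11 ∨
      Fintype.card F % 16 = 13 := by omega
  have hsq : Fintype.card F ^ 2 % 16 = 9 := by
    rw [Nat.pow_mod]
    rcases h16 with h | h | h | h <;> rw [h]
  have h8 : ¬ 8 ∣ Nat.card (Matrix.ProjectiveSpecialLinearGroup (Fin 2) F) := by
    rintro ⟨k, hk⟩
    rw [hk, hS] at hG
    have hm : Fintype.card F ^ 2 - 1 = 16 * (Fintype.card F ^ 2 / 16) + 8 := by omega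
    rw [hm] at hG
    have e : Fintype.card F * (16 * (Fintype.card F ^ 2 / 16) + 8) =
        16 * (Fintype.card F * (Fintype.card F ^ 2 / 16)) + 8 * Fintype.card F := by ring
    rw [e] at hG
    generalize Fintype.card F * (Fintype.card F ^ 2 / 16) = t at hG
    omega
  have : Fact (Nat.Prime 2) := ⟨Nat.prime_two⟩
  have : Finite (Matrix.ProjectiveSpecialLinearGroup (Fin 2) F) :=
    Finite.of_surjective _ (QuotientGroup.mk_surjective
      (s := Subgroup.center (SpecialLinearGroup (Fin 2) F)))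
  have hVp : IsPGroup 2 V := IsPGroup.of_card (n := 2) (by rw [IsKleinFour.card_four]; norm_num)
  have hWp : IsPGroup 2 W := IsPGroup.of_card (n := 2) (by rw [IsKleinFour.card_four]; norm_num)
  obtain ⟨P, hP⟩ := hWp.exists_le_sylow
  obtain ⟨n, hn⟩ := IsPGroup.iff_card.mp P.isPGroup'
  have hdvd : Nat.card (P : Subgroup (Matrix.ProjectiveSpecialLinearGroup (Fin 2) F)) ∣
      Nat.card (Matrix.ProjectiveSpecialLinearGroup (Fin 2) F) := Subgroup.card_subgroup_dvd_card _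
  have hle : Nat.card W ≤ Nat.card (P : Subgroup (Matrix.ProjectiveSpecialLinearGroup (Fin 2) F)) :=
    Subgroup.card_le_of_le hP
  have hcardP : Nat.card (P : Subgroup (Matrix.ProjectiveSpecialLinearGroup (Fin 2) F)) = 4 := by
    rw [hn] at hdvd hle ⊢
    rw [IsKleinFour.card_four] at hle
    have hn2 : n ≤ 2 := by
      by_contra hcon
      push Not at hcon
      apply h8
      exact dvd_trans (pow_dvd_pow 2 (show 3 ≤ n by omega)) hdvd
    interval_cases n <;> simp_all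
  have hWP : W = (P : Subgroup (Matrix.ProjectiveSpecialLinearGroup (Fin 2) F)) :=
    Subgroup.eq_of_le_of_card_ge hP (by rw [hcardP, IsKleinFour.card_four])
  obtain ⟨h, -, hr⟩ := Cfsg.Agent.Lib.Helper53.SylowConj.exists_conj_le_sylow ⊤ V le_top hVp P
    le_top
  refine ⟨h, ?_⟩
  symm
  have hfinW : Finite W := Nat.finite_of_card_ne_zero (by rw [IsKleinFour.card_four]; omega)
  apply Subgroup.eq_of_le_of_card_ge
  · rw [Cfsg.Agent.Lib.Helper53.SylowConj.map_conj_le_iff, hWP]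
    exact hr
  · rw [Cfsg.Agent.Lib.Helper53.SylowConj.card_map_conj, IsKleinFour.card_four,
      IsKleinFour.card_four]

end Cfsg.Agent.Lib.Helper14.Klein2
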