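import Mathlib
import Cfsg.Agent.Lib.Helper44.MFldStmt
import Cfsg.Agent.Lib.Helper43.MiRoot

/-!
# S2737, piece [KM1]: the standard field automorphism `csq σ` of `PΩ⁻` has the order of `σ`

`(csq σ)^k` maps the frame root element `X b d t` to `X b d (σ^k t)`, and `X b d` is injective
(`Helper43.MiRoot.X_inj`).
-/

set_option autoImplicit false

namespace Cfsg.Agent.Lib.Helper14.MFldKM1

open Matrix
open Cfsg.Agent.Lib.Helper45.OmegaAut Cfsg.Agent.Lib.Helper45.SemiAut
open Cfsg.Agent.Lib.Helper44.MFld0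
open Cfsg.Agent.Lib.Helper94.OrthSiegel
open Cfsg.Agent.Lib.Helper43.MiBase (Hy hQ E T T_coe omega_ext rt)
open Cfsg.Agent.Lib.Helper43.MiRoot (X X_inj)

universe u

section General

variable {F : Type u} [Field F] {ι : Type} [Fintype ι] [DecidableEq ι] {Q : (ι → F) → F}

theorem spolar_map' {σ : F ≃+* F} (h : InvS Q σ) (u v : ι → F) :
    QuadraticMap.polar Q (fun k => σ (u k)) (fun k => σ (v k)) = σ (QuadraticMap.polar Q u v) := by
  have hσ : ∀ v : ι → F, Q (fun k => σ (v k)) = σ (Q v) := h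
  have e : ((fun k => σ (u k)) + fun k => σ (v k)) = fun k => σ ((u + v) k) := by
    funext k
    simp
  unfold QuadraticMap.polar
  rw [e, hσ, hσ, hσ, map_sub, map_sub]

/-- the image of a Siegel element under a field automorphism commuting with the form -/
theorem ssg_map' (hQ : Cfsg.Geo.IsNondegenerateQuadraticForm Q) {σ : F ≃+* F} (hi : InvS Q σ)
    (a w : ι → F) :
    Matrix.GeneralLinearGroup.map (σ : F →+* F) (sg hQ a w) =
      sg hQ (fun k => σ (a k)) (fun k => σ (w k)) := by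
  have hσ : ∀ v : ι → F, Q (fun k => σ (v k)) = σ (Q v) := hi
  by_cases h : Q a = 0 ∧ QuadraticMap.polar Q a w = 0
  · have h1 : Q (fun k => σ (a k)) = 0 := by rw [hσ, h.1, map_zero]
    have h2 : QuadraticMap.polar Q (fun k => σ (a k)) (fun k => σ (w k)) = 0 := by
      rw [spolar_map' hi, h.2, map_zero]
    apply Cfsg.Agent.Lib.Helper94.Tv.gl_ext
    intro x
    have hx : x = fun k => σ (σ.symm (x k)) := by
      funext k
      simp
    rw [hx, smap_mulVec, sg_mulVec hQ _ _ h.1 h.2, sg_mulVec hQ _ _ h1 h2, spolar_map' hi,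
      spolar_map' hi, hσ]
    funext k
    simp only [Pi.add_apply, Pi.sub_apply, Pi.smul_apply, smul_eq_mul, map_add, map_sub, map_mul]
  · have h' : ¬ (Q (fun k => σ (a k)) = 0 ∧
        QuadraticMap.polar Q (fun k => σ (a k)) (fun k => σ (w k)) = 0) := by
      rw [hσ, spolar_map' hi]
      intro h'
      apply h
      exact ⟨by simpa using h'.1, by simpa using h'.2⟩
    rw [sg_not _ _ _ h, sg_not _ _ _ h', map_one]

theorem csq_mk {σ : F ≃+* F} (h : InvS Q σ) (s : ↥(Cfsg.Omega F Q)) :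
    ∃ s' : ↥(Cfsg.Omega F Q), csq Q σ h (QuotientGroup.mk s) = QuotientGroup.mk s' ∧
      ((s' : ↥(Cfsg.isometryGroup F Q)) : GL ι F) =
        Matrix.GeneralLinearGroup.map (σ : F →+* F)
          ((s : ↥(Cfsg.isometryGroup F Q)) : GL ι F) := by
  refine ⟨semiOm 1 σ h.pair s, rfl, ?_⟩
  rw [semiOm_coe, one_mul, inv_one, mul_one]

theorem invS_pow {σ : RingAut F} (h : InvS Q σ) (k : ℕ) : InvS Q (σ ^ k : RingAut F) := by
  have hσ : ∀ v : ι → F, Q (fun k => σ (v k)) = σ (Q v) := h
  induction k with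
  | zero =>
    intro v
    rfl
  | succ k ih =>
    intro v
    have ih' : ∀ v : ι → F, Q (fun j => (σ ^ k : RingAut F) (v j)) = (σ ^ k : RingAut F) (Q v) :=
      ih
    have e : (fun i => (σ ^ (k + 1) : RingAut F) (v i))
        = fun i => σ ((fun j => (σ ^ k : RingAut F) (v j)) i) := by
      funext i
      rw [pow_succ']
      rfl
    rw [e, hσ, ih', pow_succ']
    rfl

theorem csq_pow_mk {σ : RingAut F} (h : InvS Q σ) (k : ℕ) (s : ↥(Cfsg.Omega F Q)) :
    ∃ s' : ↥(Cfsg.Omega F Q), (csq Q σ h ^ k) (QuotientGroup.mk s) = QuotientGroup.mk s' ∧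
      ((s' : ↥(Cfsg.isometryGroup F Q)) : GL ι F) =
        Matrix.GeneralLinearGroup.map (((σ ^ k : RingAut F) : F ≃+* F) : F →+* F)
          ((s : ↥(Cfsg.isometryGroup F Q)) : GL ι F) := by
  induction k with
  | zero =>
    refine ⟨s, by rw [pow_zero]; rfl, ?_⟩
    apply Units.ext
    ext i j
    rfl
  | succ k ih =>
    obtain ⟨s1, h1, h2⟩ := ih
    obtain ⟨s2, h3, h4⟩ := csq_mk h s1
    refine ⟨s2, ?_, ?_⟩
    · rw [pow_succ', MulAut.mul_apply, h1, h3]
    · rw [h4, h2]
      apply Units.ext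
      ext i j
      rw [pow_succ']
      rfl

end General

/-- **Piece [KM1].** -/
theorem main : Cfsg.Agent.Lib.Helper44.MFldStmt.CsOrderMinus.{u} := by
  intro F _ _ m hm3 a b hab σ h
  have hm : Hy m F a b := ⟨hm3, hab⟩
  rw [orderOf_eq_orderOf_iff]
  intro k
  constructor
  · intro hk
    apply RingEquiv.ext
    intro t
    obtain ⟨bb, dd, hdb, hdb'⟩ : ∃ bb dd : Fin m ⊕ Fin m, dd ≠ bb ∧ dd ≠ bb.swap := by
      refine ⟨Sum.inl ⟨0, by omega⟩, Sum.inl ⟨1, by omega⟩, ?_, ?_⟩
      · intro e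
        have := Sum.inl.inj e
        simp [Fin.ext_iff] at this
      · intro e
        simp at e
    obtain ⟨s', h1, h2⟩ := csq_pow_mk h k (T hm (E bb) (t • E dd))
    rw [hk, MulAut.one_apply] at h1
    have h3 : s' = T hm (E bb) (((σ ^ k : RingAut F) t) • E dd) := by
      apply omega_ext
      rw [h2, T_coe, T_coe, ssg_map' (hQ hm) (invS_pow h k)]
      congr 1
      · exact map_single _ _
      · funext l
        have hl : (σ ^ k : RingAut F) ((E dd : Cfsg.Agent.Lib.Helper43.MiBase.MI m → F) l)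
            = (E dd : Cfsg.Agent.Lib.Helper43.MiBase.MI m → F) l :=
          congrFun (map_single (σ ^ k : RingAut F) (Sum.inl dd)) l
        rw [Pi.smul_apply, Pi.smul_apply, smul_eq_mul, smul_eq_mul, map_mul, hl]
    rw [h3] at h1
    have h4 : X hm bb dd t = X hm bb dd ((σ ^ k : RingAut F) t) := h1
    have h5 := X_inj hm hdb hdb' h4
    rw [← h5]
    rfl
  · intro hk
    apply MulEquiv.ext
    intro x
    induction x using QuotientGroup.induction_on with
    | H s =>
      obtain ⟨s', h1, h2⟩ := csq_pow_mk h k s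
      rw [h1, MulAut.one_apply]
      congr 1
      apply Subtype.ext
      apply Subtype.ext
      rw [h2, hk]
      apply Units.ext
      ext i j
      rfl

end Cfsg.Agent.Lib.Helper14.MFldKM1
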