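import Mathlib
import Cfsg.Agent.Lib.Helper44.OFldStmt
import Cfsg.Agent.Lib.Helper44.OMat

/-!
# Piece A6 of S2736 (helper44, board post 1602): unfolding the Prelude predicates

`FieldAutEq`, `ReflMap`, `ReflData`, `InndiagEq`.
-/

set_option autoImplicit false

namespace Cfsg.Agent.Lib.Helper14.OFldA6

open Matrix Module QuadraticMap
open Cfsg.Agent.Lib.Helper43.OPlAut Cfsg.Agent.Lib.Helper45.OmegaAut
  Cfsg.Agent.Lib.Helper43.H90Fin
open Cfsg.Agent.Lib.Helper44.OFld0 Cfsg.Agent.Lib.Helper44.OFld1 Cfsg.Agent.Lib.Helper44.MaxTS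
  Cfsg.Agent.Lib.Helper44.NegPairs Cfsg.Agent.Lib.Helper44.QSpace
  Cfsg.Agent.Lib.Helper44.QClass
open Cfsg.Agent.Lib.Helper44.OFldStmt

universe u

theorem fieldAutEq : FieldAutEq.{u} := by
  intro F _ m σ φ h
  apply MulEquiv.ext
  intro x
  induction x using QuotientGroup.induction_on with
  | H s =>
    rw [cσ_mk]
    apply h s (omAut σ s)
    rw [omAut_coe]
    rfl

theorem reflMap : ReflMap.{u} := by
  intro F _ ι _ _ σ P hP w hw
  have hw' : (fun i => σ (w i)) = w := funext hw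
  have hPw : σ (P w) = P w := by rw [← hP, hw']
  have e2 : ∀ j : ι, (fun i => σ ((Pi.single j (1 : F) : ι → F) i)) = Pi.single j 1 := by
    intro j
    funext i
    by_cases h : i = j
    · subst h; simp
    · simp [Pi.single_eq_of_ne h]
  have e1 : ∀ j : ι, (fun i => σ ((w + Pi.single j 1 : ι → F) i)) = w + Pi.single j 1 := by
    intro j
    funext i
    rw [Pi.add_apply, map_add, hw i]
    congr 1
    exact congrFun (e2 j) i
  have hpol : ∀ j, σ (QuadraticMap.polar P w (Pi.single j 1))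
      = QuadraticMap.polar P w (Pi.single j 1) := by
    intro j
    unfold QuadraticMap.polar
    rw [map_sub, map_sub, ← hP, ← hP, ← hP, e1, e2, hw']
  ext i j
  rw [Matrix.map_apply]
  unfold Cfsg.reflectionMatrix Cfsg.polarVec
  rw [Matrix.sub_apply, Matrix.smul_apply, Matrix.vecMulVec_apply, smul_eq_mul, map_sub, map_mul,
    map_mul, map_inv₀, hPw, hw i, hpol j]
  congr 1
  rw [Matrix.one_apply]
  split_ifs <;> simp

theorem reflData : ReflData.{u} := by
  intro F _ m v hv r hr γ hγ σ hσ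
  have hmem : r ∈ Cfsg.Geo.quadSimilarityGroup (F := F) (Cfsg.quadFormPlus m F) := by
    refine ⟨1, fun x => ?_⟩
    rw [Units.val_one, one_mul, hr]
    have h1 := Cfsg.Agent.Lib.Helper44.OMat.reflection_mulVec (plusQ m F) v x
    rw [coe_plusQ] at h1
    rw [h1]
    exact Cfsg.Agent.Lib.Helper44.OGroup.reflE_mem (plusQ m F) v x
  refine ⟨⟨r, hmem⟩, rfl, (induced_iff _ r hmem γ).1 hγ, ?_⟩
  apply Subtype.ext
  apply Units.ext
  show (r : Matrix (Fin m ⊕ Fin m) (Fin m ⊕ Fin m) F).map σ = r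
  rw [hr]
  exact reflMap F (Fin m ⊕ Fin m) σ _ (fun v => Q_map σ v) v hσ

theorem inndiagEq : InndiagEq.{u} := by
  intro F _ m ε hε
  unfold Cfsg.inndiagPOmegaPlus Cfsg.autSubgroupOf
  apply le_antisymm
  · refine (Subgroup.closure_le _).mpr ?_
    rintro β ⟨g, hg, hpres, hβ⟩
    exact ⟨⟨g, hg⟩, MonoidHom.mem_ker.2 ((hε.pres ⟨g, hg⟩).2 hpres),
      ((induced_iff (Cfsg.quadFormPlus m F) g hg β).mp hβ).symm⟩
  · rintro β ⟨g, hg0, rfl⟩
    exact Subgroup.subset_closure ⟨g.1, g.2, (hε.pres g).1 (MonoidHom.mem_ker.1 hg0),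
      (induced_iff (Cfsg.quadFormPlus m F) g.1 g.2 _).mpr rfl⟩

end Cfsg.Agent.Lib.Helper14.OFldA6
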