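import Mathlib
import Cfsg.Agent.Lib.Helper94.OPStmt
import Cfsg.Agent.Lib.Helper59.HypDERELT

/-! # S5989 / DERELTP (helper14)

An element of order `r` of the commutator subgroup of the isometry group of the plus form whose
fixed space has dimension `(2 d) % c`.
* `(2 d) % c > 0`: port of `Helper59.HypDERELT.main` (embedding of the block space).
* `(2 d) % c = 0`: then `i ∣ d` and `x = fromBlocks A 0 0 (A⁻¹)ᵀ` with `A` of characteristic
  polynomial `P ^ (d / i)`. -/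

set_option autoImplicit false

namespace Cfsg.Agent.Lib.Helper14.OPDERELTP

open Polynomial UniqueFactorizationMonoid Matrix
open Cfsg.Agent.Lib.Helper40.RecipPoly Cfsg.Agent.Lib.Helper44.OCls2 Cfsg.Agent.Lib.Helper44.OCls3
  Cfsg.Agent.Lib.Helper44.OCls4
open Cfsg.Agent.Lib.Helper37.HypStmt (cc)
open Cfsg.Agent.Lib.Helper94.OPStmt

universe u

theorem finrank_FxP {F : Type u} [Field F] {d : ℕ} (x : Matrix (P d) (P d) F) (r : ℕ)
    (hr0 : (r : F) ≠ 0) (hx : x ^ r = 1) :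
    Module.finrank F ↥(FxP x) = x.charpoly.rootMultiplicity 1 := by
  have hss : Module.End.IsSemisimple (Matrix.toLin' x) :=
    Cfsg.Agent.Lib.Helper40.SSConj.isSemisimple_toLin' x r hr0 hx
  have h1 : FxP x = Module.End.eigenspace (Matrix.toLin' x) 1 := by
    rw [Module.End.eigenspace_def, one_smul]
    rfl
  rw [h1, ← hss.isFinitelySemisimple.maxGenEigenspace_eq_eigenspace 1,
    LinearMap.finrank_maxGenEigenspace_eq, Matrix.charpoly_toLin']

theorem card_P (d : ℕ) : Fintype.card (P d) = 2 * d := by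
  simp [P]
  omega

theorem mem_omega_of_odd_order {F : Type u} [Field F] [Fintype F] (h2 : (2 : F) ≠ 0) (d : ℕ)
    (hd : 2 ≤ d) (g : Matrix.GeneralLinearGroup (P d) F)
    (hgiso : g ∈ Cfsg.isometryGroup F ⇑(Cfsg.Agent.Lib.Helper44.NegPairs.plusQ d F))
    (r : ℕ) (hrodd : Odd r) (hgr : g ^ r = 1) :
    g ∈ Cfsg.Geo.omegaGL (Cfsg.quadFormPlus d F) := by
  have hSQ : Cfsg.Agent.Lib.Helper44.QSpace.Sep (Cfsg.Agent.Lib.Helper44.NegPairs.plusQ d F) :=
    Cfsg.Agent.Lib.Helper44.NegPairs.sep_plusQ d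
  obtain ⟨a, ha⟩ := hrodd
  obtain ⟨g', hg'⟩ : ∃ g' : ↥(Cfsg.isometryGroup F ⇑(Cfsg.Agent.Lib.Helper44.NegPairs.plusQ d F)),
      g' = ⟨g, hgiso⟩ := ⟨_, rfl⟩
  have hg'r : g' ^ r = 1 := by
    apply Subtype.ext
    rw [Subgroup.coe_pow, hg']
    exact hgr
  have hsq : g' = g' ^ (a + 1) * g' ^ (a + 1) := by
    rw [← pow_add]
    have h3 : a + 1 + (a + 1) = r + 1 := by omega
    rw [h3, pow_succ, hg'r, one_mul]
  have hmem : g' ∈ Cfsg.Omega F ⇑(Cfsg.Agent.Lib.Helper44.NegPairs.plusQ d F) := by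
    rw [hsq]
    exact Cfsg.Agent.Lib.Helper14.OrthIndex.sq_mem_omega h2
      (Cfsg.Agent.Lib.Helper44.NegPairs.plusQ d F) hSQ (by rw [card_P]; omega) _
  exact Subgroup.mem_map.mpr ⟨g', hmem, by rw [hg']; rfl⟩

/-- Case `(2 d) % c > 0`: port of `Helper59.HypDERELT.main`. -/
theorem case_emb (F : Type u) [Field F] [Fintype F] (p : ℕ) [Fact p.Prime] [CharP F p]
    (hodd : Odd (Fintype.card F)) (d : ℕ) (hd : 2 ≤ d) (r : ℕ) [Fact r.Prime] (hr2 : r ≠ 2)
    (hrp : r ≠ p) (hcle : cc (orderOf ((Fintype.card F : ℕ) : ZMod r)) ≤ 2 * d)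
    (hpos : 0 < (2 * d) % cc (orderOf ((Fintype.card F : ℕ) : ZMod r))) :
    ∃ x : Matrix.GeneralLinearGroup (P d) F, x ∈ Cfsg.Geo.omegaGL (Cfsg.quadFormPlus d F) ∧
      orderOf x = r ∧
      Module.finrank F ↥(FxP (x : Matrix (P d) (P d) F)) =
        (2 * d) % cc (orderOf ((Fintype.card F : ℕ) : ZMod r)) := by
  classical
  have hr : r.Prime := Fact.out
  have hrodd : Odd r := hr.odd_of_ne_two hr2
  obtain ⟨c', hreal, hdeg, hnd⟩ := Cfsg.Agent.Lib.Helper59.HypDERELT.exists_block F p r hr hr2 hrp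
  obtain ⟨hipos, -⟩ := Cfsg.Agent.Lib.Helper59.HypDERELT.order_facts F p r hr hrp
  obtain ⟨c0, hc0⟩ : ∃ c0, c0 = cc (orderOf ((Fintype.card F : ℕ) : ZMod r)) := ⟨_, rfl⟩
  rw [← hc0] at hdeg hcle hpos ⊢
  have hc0even : Even c0 := by
    rw [hc0]
    unfold cc
    split_ifs with h
    · exact h
    · exact even_two_mul _
  have hc0pos : 0 < c0 := by
    rw [hc0]
    unfold cc
    split_ifs with h
    · exact hipos
    · omega
  obtain ⟨b, hb⟩ : ∃ b, b = (2 * d) / c0 := ⟨_, rfl⟩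
  obtain ⟨ι, _, _, s, N, hsc, hsr, hsN, hNdet⟩ :=
    Cfsg.Agent.Lib.Helper59.HypDERELT.real_pow hreal b
  have hcard : Fintype.card ι = b * c0 := by
    have h1 := Matrix.charpoly_natDegree_eq_dim s
    rw [hsc, natDegree_pow, hdeg] at h1
    exact h1.symm
  have hbc : b * c0 + (2 * d) % c0 = 2 * d := by
    rw [hb]
    exact Nat.div_add_mod' _ _
  have hbceven : Even (b * c0) := hc0even.mul_left b
  have hlt : b * c0 < 2 * d := by omega
  have hcardP : Fintype.card (P d) = 2 * d := card_P d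
  have h2 : (2 : F) ≠ 0 := Cfsg.Agent.Lib.Helper44.FinSq.two_ne_zero_of_odd_card hodd
  have hSQ : Cfsg.Agent.Lib.Helper44.QSpace.Sep (Cfsg.Agent.Lib.Helper44.NegPairs.plusQ d F) :=
    Cfsg.Agent.Lib.Helper44.NegPairs.sep_plusQ d
  have hSN : Cfsg.Agent.Lib.Helper44.QSpace.Sep (Cfsg.Agent.Lib.Helper44.OExt.qN N) :=
    Cfsg.Agent.Lib.Helper44.OExt.sep_qN hNdet
  obtain ⟨k, hk⟩ := hbceven
  obtain ⟨j, hj⟩ := Cfsg.Agent.Lib.Helper44.OEmb.exists_embedding (F := F) k (ι → F)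
    (Cfsg.Agent.Lib.Helper44.OExt.qN N) (P d → F) (Cfsg.Agent.Lib.Helper44.NegPairs.plusQ d F)
    (by rw [Module.finrank_fintype_fun_eq_card, hcard]; omega)
    (by rw [Module.finrank_fintype_fun_eq_card, Module.finrank_fintype_fun_eq_card, hcard,
          hcardP]; exact hlt) hSN hSQ
  obtain ⟨g, hgiso, hgcp, hgr⟩ := Cfsg.Agent.Lib.Helper44.OExt.exists_ext
    (Cfsg.Agent.Lib.Helper44.NegPairs.plusQ d F) N s hNdet hsN r hr.pos hsr j hj
    (by rw [hcard, hcardP]; omega)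
  have hr0 : (r : F) ≠ 0 := by
    rw [Ne, CharP.cast_eq_zero_iff F p]
    intro h
    exact hrp ((Nat.prime_dvd_prime_iff_eq (Fact.out : p.Prime) hr).mp h).symm
  have hgrM : (g : Matrix (P d) (P d) F) ^ r = 1 := by
    rw [← Units.val_pow_eq_pow_val, hgr]
    rfl
  have hLp : Prime (X - C (1 : F)) := (irreducible_X_sub_C 1).prime
  have hfix : Module.finrank F ↥(FxP (g : Matrix (P d) (P d) F)) = (2 * d) % c0 := by
    rw [finrank_FxP _ r hr0 hgrM, hgcp, hsc, hcard, hcardP]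
    have hc'0 : c' ≠ 0 := by
      intro h
      exact hnd (h ▸ dvd_zero _)
    have hne : (X - C (1 : F)) ^ (2 * d - b * c0) * c' ^ b ≠ 0 :=
      mul_ne_zero (pow_ne_zero _ (X_sub_C_ne_zero 1)) (pow_ne_zero _ hc'0)
    rw [rootMultiplicity_mul hne, rootMultiplicity_X_sub_C_pow]
    have h3 : rootMultiplicity 1 (c' ^ b) = 0 := by
      apply rootMultiplicity_eq_zero
      intro hroot
      have h4 : (X - C (1 : F)) ∣ c' ^ b := dvd_iff_isRoot.mpr hroot
      exact hnd (hLp.dvd_of_dvd_pow h4)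
    rw [h3]
    omega
  have hg1 : g ≠ 1 := by
    intro h
    rw [h] at hfix
    have h3 : FxP ((1 : Matrix.GeneralLinearGroup (P d) F) : Matrix (P d) (P d) F) = ⊤ := by
      rw [eq_top_iff]
      intro v _
      rw [mem_FxP]
      simp
    rw [h3, finrank_top, Module.finrank_fintype_fun_eq_card, hcardP] at hfix
    have := Nat.mod_lt (2 * d) hc0pos
    omega
  exact ⟨g, mem_omega_of_odd_order h2 d hd g hgiso r hrodd hgr, orderOf_eq_prime hgr hg1, hfix⟩

theorem no_fix {F : Type u} [Field F] {d : ℕ} (B : Matrix (Fin d) (Fin d) F)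
    (hB : B.charpoly.eval 1 ≠ 0) (w : Fin d → F) (hw : B *ᵥ w = w) : w = 0 := by
  rw [Matrix.eval_charpoly, map_one] at hB
  apply Matrix.eq_zero_of_mulVec_eq_zero hB
  rw [Matrix.sub_mulVec, Matrix.one_mulVec, hw, sub_self]

/-- Case `i ∣ d`: `x = fromBlocks A 0 0 (A⁻¹)ᵀ` without fixed vectors. -/
theorem case_psi (F : Type u) [Field F] [Fintype F] (p : ℕ) [Fact p.Prime] [CharP F p]
    (hodd : Odd (Fintype.card F)) (d : ℕ) (hd : 2 ≤ d) (r : ℕ) [Fact r.Prime] (hr2 : r ≠ 2)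
    (hrp : r ≠ p) (hdvd : orderOf ((Fintype.card F : ℕ) : ZMod r) ∣ d) :
    ∃ x : Matrix.GeneralLinearGroup (P d) F, x ∈ Cfsg.Geo.omegaGL (Cfsg.quadFormPlus d F) ∧
      orderOf x = r ∧ FxP (x : Matrix (P d) (P d) F) = ⊥ := by
  classical
  have hr : r.Prime := Fact.out
  have hp : p.Prime := Fact.out
  have hrodd : Odd r := hr.odd_of_ne_two hr2
  obtain ⟨hipos, hidvd⟩ := Cfsg.Agent.Lib.Helper59.HypDERELT.order_facts F p r hr hrp
  obtain ⟨i, hi⟩ : ∃ i, i = orderOf ((Fintype.card F : ℕ) : ZMod r) := ⟨_, rfl⟩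
  rw [← hi] at hdvd hipos hidvd
  obtain ⟨t, ht'⟩ := hidvd
  have ht : t * i = r - 1 := by rw [ht', mul_comm]
  have htpos : 0 < t := by
    rcases Nat.eq_zero_or_pos t with h | h
    · subst h
      have := hr.two_le
      omega
    · exact h
  obtain ⟨S, hScard, hLS, hS, hSdvd⟩ :=
    Cfsg.Agent.S2568.cyclo_facts (F := F) (p := p) r i t hr hrp hi ht
  obtain ⟨P₀, hP₀S⟩ : S.Nonempty := Finset.card_pos.mp (by rw [hScard]; exact htpos)
  obtain ⟨hPirr, hPm, hPdeg⟩ := hS P₀ hP₀S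
  have hPne : P₀ ≠ X - C 1 := fun h => hLS (h ▸ hP₀S)
  have hPdvd : P₀ ∣ X ^ r - C (1 : F) := (hSdvd P₀ hPirr hPm).mpr (Or.inr hP₀S)
  obtain ⟨m, hm⟩ := hdvd
  have hXr0 : (X ^ r - C (1 : F)).coeff 0 ≠ 0 := by
    rw [coeff_sub, coeff_X_pow, coeff_C_zero, if_neg hr.ne_zero.symm, zero_sub]
    exact neg_ne_zero.mpr one_ne_zero
  have hP0 : P₀.coeff 0 ≠ 0 := coeff0_of_dvd hPdvd hXr0
  have hcm : (P₀ ^ m).Monic := hPm.pow m
  have hcdeg : (P₀ ^ m).natDegree = d := by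
    rw [natDegree_pow, hPdeg, hm, mul_comm]
  have hc0 : (P₀ ^ m).coeff 0 ≠ 0 := by
    rw [coeff_zero_eq_eval_zero, eval_pow, ← coeff_zero_eq_eval_zero]
    exact pow_ne_zero _ hP0
  obtain ⟨A, hAc, N₀, hN₀pos, hN₀cop, hAN⟩ :=
    Cfsg.Agent.Lib.Helper40.SSCount.exists_charpoly p d (P₀ ^ m) hcm hcdeg hc0
  have hAr : A ^ r = 1 := by
    apply Cfsg.Agent.S2568.pow_eq_one_of_charpoly A r N₀ hN₀cop hAN
    intro P' hP'
    rw [hAc] at hP'
    have h1 : P' ∣ P₀ ^ m := dvd_of_mem_normalizedFactors hP'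
    have h2 : P' ∣ P₀ := (irreducible_of_normalized_factor P' hP').prime.dvd_of_dvd_pow h1
    exact dvd_trans h2 hPdvd
  have hP1 : P₀.eval 1 ≠ 0 := by
    intro h
    have h1 : (X - C (1 : F)) ∣ P₀ := dvd_iff_isRoot.mpr h
    have h3 := (irreducible_X_sub_C (1 : F)).associated_of_dvd hPirr h1
    exact hPne (eq_of_monic_of_associated (monic_X_sub_C 1) hPm h3).symm
  have hA1 : A.charpoly.eval 1 ≠ 0 := by
    rw [hAc, eval_pow]
    exact pow_ne_zero _ hP1
  have hAT1 : Aᵀ.charpoly.eval 1 ≠ 0 := by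
    rw [Matrix.charpoly_transpose]
    exact hA1
  obtain ⟨A', hA'⟩ : ∃ A' : Matrix (Fin d) (Fin d) F, A' = A ^ (r - 1) := ⟨_, rfl⟩
  have hAA' : A * A' = 1 := by rw [hA', ← pow_succ', Nat.sub_add_cancel hr.pos, hAr]
  have hA'A : A' * A = 1 := by rw [hA', ← pow_succ, Nat.sub_add_cancel hr.pos, hAr]
  have hA'r : A' ^ r = 1 := by rw [hA', ← pow_mul, mul_comm, pow_mul, hAr, one_pow]
  obtain ⟨M, hM⟩ : ∃ M : Matrix (P d) (P d) F, M = fromBlocks A 0 0 A'ᵀ := ⟨_, rfl⟩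
  obtain ⟨M', hM'⟩ : ∃ M' : Matrix (P d) (P d) F, M' = fromBlocks A' 0 0 Aᵀ := ⟨_, rfl⟩
  have hMM' : M * M' = 1 := by
    rw [hM, hM', fromBlocks_multiply]
    simp only [Matrix.mul_zero, Matrix.zero_mul, add_zero, zero_add]
    rw [hAA', ← Matrix.transpose_mul, hAA', Matrix.transpose_one, fromBlocks_one]
  have hM'M : M' * M = 1 := by
    rw [hM, hM', fromBlocks_multiply]
    simp only [Matrix.mul_zero, Matrix.zero_mul, add_zero, zero_add]
    rw [hA'A, ← Matrix.transpose_mul, hA'A, Matrix.transpose_one, fromBlocks_one]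
  obtain ⟨x, hx⟩ : ∃ x : Matrix.GeneralLinearGroup (P d) F, (x : Matrix (P d) (P d) F) = M :=
    ⟨⟨M, M', hMM', hM'M⟩, rfl⟩
  have hxr : x ^ r = 1 := by
    apply Units.ext
    rw [Units.val_pow_eq_pow_val, hx, hM, fromBlocks_diag_pow, hAr, ← Matrix.transpose_pow, hA'r,
      Matrix.transpose_one, fromBlocks_one]
    rfl
  have hxv : ∀ v : P d → F, (x : Matrix (P d) (P d) F) *ᵥ v
      = Sum.elim (A *ᵥ (v ∘ Sum.inl)) (A'ᵀ *ᵥ (v ∘ Sum.inr)) := by
    intro v
    rw [hx, hM, fromBlocks_mulVec]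
    simp
  have hiso : x ∈ Cfsg.isometryGroup F ⇑(Cfsg.Agent.Lib.Helper44.NegPairs.plusQ d F) := by
    intro v _
    show Cfsg.quadFormPlus d F ((x : Matrix (P d) (P d) F) *ᵥ v) = Cfsg.quadFormPlus d F v
    rw [hxv]
    unfold Cfsg.quadFormPlus
    simp only [Sum.elim_inl, Sum.elim_inr]
    have e1 : ∑ a : Fin d, (A *ᵥ (v ∘ Sum.inl)) a * (A'ᵀ *ᵥ (v ∘ Sum.inr)) a
        = (A *ᵥ (v ∘ Sum.inl)) ⬝ᵥ (A'ᵀ *ᵥ (v ∘ Sum.inr)) := rfl
    have e2 : ∑ a : Fin d, v (Sum.inl a) * v (Sum.inr a) = (v ∘ Sum.inl) ⬝ᵥ (v ∘ Sum.inr) := rfl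
    rw [e1, e2, ← Matrix.vecMul_transpose, ← Matrix.dotProduct_mulVec, Matrix.mulVec_mulVec,
      ← Matrix.transpose_mul, hA'A, Matrix.transpose_one, Matrix.one_mulVec]
  have hfix : FxP (x : Matrix (P d) (P d) F) = ⊥ := by
    rw [eq_bot_iff]
    intro v hv
    rw [mem_FxP, hxv] at hv
    have h1 : A *ᵥ (v ∘ Sum.inl) = v ∘ Sum.inl := by
      funext a
      have := congrFun hv (Sum.inl a)
      simpa using this
    have h2 : A'ᵀ *ᵥ (v ∘ Sum.inr) = v ∘ Sum.inr := by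
      funext a
      have := congrFun hv (Sum.inr a)
      simpa using this
    have h3 : Aᵀ *ᵥ (v ∘ Sum.inr) = v ∘ Sum.inr := by
      have h4 : Aᵀ *ᵥ (A'ᵀ *ᵥ (v ∘ Sum.inr)) = v ∘ Sum.inr := by
        rw [Matrix.mulVec_mulVec, ← Matrix.transpose_mul, hA'A, Matrix.transpose_one,
          Matrix.one_mulVec]
      rw [h2] at h4
      exact h4
    have z1 := no_fix A hA1 _ h1
    have z2 := no_fix Aᵀ hAT1 _ h3
    rw [Submodule.mem_bot]
    funext c
    rcases c with a | a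
    · exact congrFun z1 a
    · exact congrFun z2 a
  have h2F : (2 : F) ≠ 0 := Cfsg.Agent.Lib.Helper44.FinSq.two_ne_zero_of_odd_card hodd
  have hx1 : x ≠ 1 := by
    intro h
    rw [h] at hfix
    have h3 : FxP ((1 : Matrix.GeneralLinearGroup (P d) F) : Matrix (P d) (P d) F) = ⊤ := by
      rw [eq_top_iff]
      intro v _
      rw [mem_FxP]
      simp
    have h4 : Module.finrank F ↥(⊤ : Submodule F (P d → F)) = 0 := by
      rw [← h3, hfix, finrank_bot]
    rw [finrank_top, Module.finrank_fintype_fun_eq_card, card_P] at h4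
    omega
  exact ⟨x, mem_omega_of_odd_order h2F d hd x hiso r hrodd hxr, orderOf_eq_prime hxr hx1, hfix⟩

theorem main : DerEltP.{u} := by
  intro F _ _ p _ _ hodd d hd r _ hr2 hrp hcle hcond
  have hr : r.Prime := Fact.out
  by_cases hpos : 0 < (2 * d) % cc (orderOf ((Fintype.card F : ℕ) : ZMod r))
  · exact case_emb F p hodd d hd r hr2 hrp hcle hpos
  · have h0 : (2 * d) % cc (orderOf ((Fintype.card F : ℕ) : ZMod r)) = 0 := by omega
    have hipos := (Cfsg.Agent.Lib.Helper59.HypDERELT.order_facts F p r hr hrp).1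
    have hdvd : orderOf ((Fintype.card F : ℕ) : ZMod r) ∣ d := by
      obtain ⟨i, hi⟩ : ∃ i, i = orderOf ((Fintype.card F : ℕ) : ZMod r) := ⟨_, rfl⟩
      rw [← hi] at h0 hcond hipos hpos ⊢
      have hodd_case : ¬ Even i → i ∣ d := by
        intro he
        have hcc : cc i = 2 * i := by
          unfold cc
          rw [if_neg he]
        rw [hcc] at h0
        have h3 : 2 * i ∣ 2 * d := Nat.dvd_of_mod_eq_zero h0
        exact (Nat.mul_dvd_mul_iff_left (by norm_num)).mp h3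
      rcases hcond with h | h | h
      · exact absurd h hpos
      · exact hodd_case (Nat.not_even_iff_odd.mpr h)
      · by_cases he : Even i
        · have hcc : cc i = i := by
            unfold cc
            rw [if_pos he]
          rw [hcc] at h0
          obtain ⟨q, hq⟩ := Nat.dvd_of_mod_eq_zero h0
          have hq' : 2 * d / i = q := by rw [hq, Nat.mul_div_cancel_left q hipos]
          rw [hq'] at h
          obtain ⟨q', hq''⟩ := h
          refine ⟨q', ?_⟩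
          have h5 : 2 * d = 2 * (i * q') := by
            rw [hq, hq'']
            ring
          omega
        · exact hodd_case he
    obtain ⟨x, hx, hord, hfix⟩ := case_psi F p hodd d hd r hr2 hrp hdvd
    refine ⟨x, hx, hord, ?_⟩
    rw [hfix, h0, finrank_bot]

end Cfsg.Agent.Lib.Helper14.OPDERELTP
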