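import Mathlib
import Cfsg.Agent.Lib.Helper98.PSpStmt

set_option autoImplicit false

/-! Piece MODD of the S3421 call: the normaliser of a non-trivial Sylow intersection of largest
order has odd order. -/

namespace Cfsg.Agent.Lib.Helper14.PSpMODD

open Cfsg.Agent.Lib.Helper98.PSpStmt

universe u

variable {G : Type u} [Group G]

theorem conj_centralizer {H : Subgroup G} {n c : G} (hn : n ∈ Subgroup.normalizer (H : Set G))
    (hc : c ∈ Subgroup.centralizer (H : Set G)) :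
    n * c * n⁻¹ ∈ Subgroup.centralizer (H : Set G) := by
  rw [Subgroup.mem_centralizer_iff] at hc ⊢
  intro h hh
  have h1 : n⁻¹ * h * n ∈ H := (Subgroup.mem_normalizer_iff''.1 hn h).1 hh
  have h2 := hc _ h1
  calc h * (n * c * n⁻¹) = n * ((n⁻¹ * h * n) * c) * n⁻¹ := by group
    _ = n * (c * (n⁻¹ * h * n)) * n⁻¹ := by rw [h2]
    _ = n * c * n⁻¹ * h := by group

theorem main (hMaxI : MaxI.{u}) (hInv : Inv.{u}) (hCentP : CentP.{u}) (hExpP : ExpP.{u}) :
    MOdd.{u} := by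
  intro G _ p q m₁ m₂ h P₁ P₂ hne hDne hmax
  have := h.fin
  have hp : p.Prime := h.pp
  have hpF : Fact p.Prime := ⟨hp⟩
  by_contra hodd
  have heven : 2 ∣ Nat.card (ND P₁ P₂) := even_iff_two_dvd.1 (Nat.not_odd_iff_even.1 hodd)
  set D : Subgroup G := (P₁ : Subgroup G) ⊓ (P₂ : Subgroup G) with hD
  have hDp : IsPGroup p D := P₁.2.to_le inf_le_left
  obtain ⟨⟨u, hu1, huN, hu2⟩, -, -, hd⟩ := hMaxI G p hp P₁ P₂ hne hmax
  -- the involution
  obtain ⟨s', hs'⟩ := exists_prime_orderOf_dvd_card' 2 heven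
  set s : G := (s' : G) with hs
  have hso : orderOf s = 2 := by rw [hs, Subgroup.orderOf_coe]; exact hs'
  have hsN : s ∈ ND P₁ P₂ := s'.2
  have hs2 : s ^ 2 = 1 := by rw [← hso]; exact pow_orderOf_eq_one s
  have hs1 : s ≠ 1 := by
    intro h1
    rw [h1, orderOf_one] at hso
    omega
  have hsinv : s⁻¹ = s := by
    rw [inv_eq_iff_mul_eq_one, ← sq]
    exact hs2
  have hsD : ∀ e ∈ D, s * e * s⁻¹ ∈ D := fun e he => (Subgroup.mem_normalizer_iff.1 hsN e).1 he
  have hinvD := hInv G p q m₁ m₂ h s D hs1 hs2 hDp hsD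
  -- the centralizer of D is a p-group
  obtain ⟨⟨x, hxD⟩, hx1⟩ := (Subgroup.ne_bot_iff_exists_ne_one).1 hDne
  have hx1' : x ≠ 1 := fun h1 => hx1 (Subtype.ext h1)
  have hxp : x ^ p = 1 := hExpP G p q m₁ m₂ h D hDp x hxD
  have hxo : orderOf x = p := orderOf_eq_prime hxp hx1'
  set K : Subgroup G := Subgroup.centralizer (D : Set G) with hK
  have hKp : IsPGroup p K := by
    rintro ⟨c, hc⟩
    refine ⟨1, Subtype.ext ?_⟩
    have hcx : Commute c x := ((Subgroup.mem_centralizer_iff.1 hc) x hxD).symm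
    have := hCentP G p q m₁ m₂ h x c hxo hcx
    simpa using this
  have hKD : K ≤ D := hd K hKp (Subgroup.centralizer_le_normalizer _)
    (fun n hn k hk => conj_centralizer hn hk)
  -- z = s * (u s u⁻¹) centralizes D
  have huD : ∀ e ∈ D, u⁻¹ * e * u ∈ D := fun e he => (Subgroup.mem_normalizer_iff''.1 huN e).1 he
  have hz : s * (u * s * u⁻¹) ∈ K := by
    rw [hK, Subgroup.mem_centralizer_iff]
    intro e he
    have h1 := hinvD (u⁻¹ * e * u) (huD e he)
    have h2 := hinvD e⁻¹ (D.inv_mem he)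
    rw [inv_inv, hsinv] at h2
    rw [hsinv] at h1
    -- s * (u⁻¹ e u) * s = (u⁻¹ e u)⁻¹ ; s * e⁻¹ * s = e
    have h3 : (u * s * u⁻¹) * e = e⁻¹ * (u * s * u⁻¹) := by
      have : s * (u⁻¹ * e * u) = (u⁻¹ * e * u)⁻¹ * s := by
        have h4 : s * (u⁻¹ * e * u) * s * s = (u⁻¹ * e * u)⁻¹ * s := by rw [h1]
        rw [mul_assoc (s * (u⁻¹ * e * u)) s s, ← sq, hs2, mul_one] at h4
        exact h4
      calc (u * s * u⁻¹) * e = u * (s * (u⁻¹ * e * u)) * u⁻¹ := by group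
        _ = u * ((u⁻¹ * e * u)⁻¹ * s) * u⁻¹ := by rw [this]
        _ = e⁻¹ * (u * s * u⁻¹) := by group
    have h5 : s * e⁻¹ = e * s := by
      have h4 : s * e⁻¹ * s * s = e * s := by rw [h2]
      rw [mul_assoc (s * e⁻¹) s s, ← sq, hs2, mul_one] at h4
      exact h4
    calc e * (s * (u * s * u⁻¹)) = (e * s) * (u * s * u⁻¹) := by group
      _ = (s * e⁻¹) * (u * s * u⁻¹) := by rw [h5]
      _ = s * (e⁻¹ * (u * s * u⁻¹)) := by group
      _ = s * ((u * s * u⁻¹) * e) := by rw [h3]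
      _ = s * (u * s * u⁻¹) * e := by group
  have hzD : s * (u * s * u⁻¹) ∈ D := hKD hz
  -- E = D ⊔ ⟨u⟩
  set E : Subgroup G := D ⊔ Subgroup.zpowers u with hE
  have hEP : E ≤ (P₁ : Subgroup G) := sup_le inf_le_left (by
    rw [Subgroup.zpowers_le]; exact hu1)
  have hEp : IsPGroup p E := P₁.2.to_le hEP
  have huE : u ∈ E := (le_sup_right : Subgroup.zpowers u ≤ E) (Subgroup.mem_zpowers u)
  have hsu : s * u * s⁻¹ = (s * (u * s * u⁻¹)) * u := by
    rw [hsinv]; group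
  have hsuE : s * u * s⁻¹ ∈ E := by
    rw [hsu]
    exact E.mul_mem ((le_sup_left : D ≤ E) hzD) huE
  have hsE : ∀ e ∈ E, s * e * s⁻¹ ∈ E := by
    have hmap : E.map (MulAut.conj s).toMonoidHom ≤ E := by
      rw [hE, Subgroup.map_sup]
      apply sup_le
      · rintro _ ⟨e, he, rfl⟩
        exact (le_sup_left : D ≤ D ⊔ Subgroup.zpowers u) (hsD e he)
      · rw [MonoidHom.map_zpowers, Subgroup.zpowers_le]
        exact hsuE
    intro e he
    exact hmap ⟨e, he, rfl⟩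
  have hinvE := hInv G p q m₁ m₂ h s E hs1 hs2 hEp hsE u huE
  -- u² ∈ D
  have hu2D : u ^ 2 ∈ D := by
    have h1 : (s * (u * s * u⁻¹)) * u = u⁻¹ := by rw [← hsu]; exact hinvE
    have h2 : u ^ 2 = (s * (u * s * u⁻¹))⁻¹ := by
      have : (s * (u * s * u⁻¹)) = u⁻¹ * u⁻¹ := by
        rw [← h1]; group
      rw [this]; group
    rw [h2]
    exact D.inv_mem hzD
  have hup : u ^ p = 1 := hExpP G p q m₁ m₂ h (P₁ : Subgroup G) P₁.2 u hu1
  obtain ⟨j, hj⟩ := hp.odd_of_ne_two h.podd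
  have huD' : u ∈ D := by
    have h1 : u = (u ^ 2) ^ (j + 1) := by
      rw [← pow_mul]
      have : 2 * (j + 1) = p + 1 := by omega
      rw [this, pow_succ, hup, one_mul]
    rw [h1]
    exact D.pow_mem hu2D _
  exact hu2 huD'.2

end Cfsg.Agent.Lib.Helper14.PSpMODD
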