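import Mathlib
import Cfsg.Agent.Lib.Helper98.PSpStmt

set_option autoImplicit false

/-! Piece PCLS of the S3421 call: `p`-closure of a subgroup, elementwise form. -/

namespace Cfsg.Agent.Lib.Helper14.PSpPCLS

open Cfsg.Agent.Lib.Helper98.PSpStmt

universe u

theorem main (hPclM : PclM.{u}) : PclS.{u} := by
  intro G _ _ p hp M hloc Q₁ Q₂ hQ₁M hQ₂M hQ₁ hQ₂
  have hpF : Fact p.Prime := ⟨hp⟩
  have hnorm := hPclM ↥M p hp (by
    intro r hr hrp R g hg
    rw [Subgroup.mem_centralizer_iff]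
    intro h hh
    have hh' : h ∈ (R : Subgroup ↥M) := hh
    have key := hloc r hr hrp ((R : Subgroup ↥M).map M.subtype)
      (by
        rintro _ ⟨c, -, rfl⟩
        exact c.2)
      (R.2.map M.subtype) (g : G) g.2
      (by
        rintro _ ⟨c, hc, rfl⟩
        refine ⟨g * c * g⁻¹, ?_, by simp⟩
        exact (Subgroup.mem_normalizer_iff.1 hg c).1 hc)
      (h : G) ⟨h, hh', rfl⟩
    exact Subtype.ext key.symm)
  let P : Sylow p ↥M := default
  have hPn : (P : Subgroup ↥M).Normal := hnorm P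
  have hle : ∀ Q : Subgroup G, Q ≤ M → IsPGroup p Q →
      Q ≤ (P : Subgroup ↥M).map M.subtype := by
    intro Q hQM hQ x hx
    have hQ' : IsPGroup p (Q.subgroupOf M) :=
      hQ.comap_of_injective M.subtype M.subtype_injective
    obtain ⟨S, hS⟩ := hQ'.exists_le_sylow
    obtain ⟨g, hg⟩ := MulAction.exists_smul_eq (↥M) P S
    have hSP : S = P := by
      rw [← hg]
      exact Sylow.smul_eq_of_normal
    have : (⟨x, hQM hx⟩ : ↥M) ∈ (P : Subgroup ↥M) := by
      rw [← hSP]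
      exact hS (Subgroup.mem_subgroupOf.2 hx)
    exact ⟨⟨x, hQM hx⟩, this, rfl⟩
  exact (P.2.map M.subtype).to_le (sup_le (hle Q₁ hQ₁M hQ₁) (hle Q₂ hQ₂M hQ₂))

end Cfsg.Agent.Lib.Helper14.PSpPCLS
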