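import Mathlib
import Cfsg.Agent.Lib.Helper98.PSpStmt

set_option autoImplicit false

/-! Piece TI of the S3421 call: distinct Sylow `p`-subgroups meet trivially. -/

namespace Cfsg.Agent.Lib.Helper14.PSpTI

open Cfsg.Agent.Lib.Helper98.PSpStmt

universe u

theorem main (hMaxI : MaxI.{u}) (hMOdd : MOdd.{u}) (hLocR : LocR.{u}) (hPclS : PclS.{u}) :
    TI.{u} := by
  intro G _ p q m₁ m₂ h P₁ P₂ hne
  have := h.fin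
  by_contra hD
  let α := {x : Sylow p G × Sylow p G // x.1 ≠ x.2}
  have : Nonempty α := ⟨⟨(P₁, P₂), hne⟩⟩
  obtain ⟨⟨⟨Q₁, Q₂⟩, hQne⟩, hmax⟩ := Finite.exists_max
    (fun x : α => Nat.card ↥((x.1.1 : Subgroup G) ⊓ (x.1.2 : Subgroup G)))
  have hmax' : ∀ R₁ R₂ : Sylow p G, R₁ ≠ R₂ →
      Nat.card ↥((R₁ : Subgroup G) ⊓ (R₂ : Subgroup G)) ≤
        Nat.card ↥((Q₁ : Subgroup G) ⊓ (Q₂ : Subgroup G)) :=
    fun R₁ R₂ hR => hmax ⟨(R₁, R₂), hR⟩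
  have hQD : (Q₁ : Subgroup G) ⊓ (Q₂ : Subgroup G) ≠ ⊥ := by
    intro hbot
    have h1 := hmax' P₁ P₂ hne
    rw [hbot, Subgroup.card_bot] at h1
    have h2 : Nat.card ↥((P₁ : Subgroup G) ⊓ (P₂ : Subgroup G)) = 1 := by
      have := Nat.card_pos (α := ↥((P₁ : Subgroup G) ⊓ (P₂ : Subgroup G)))
      omega
    exact hD (Subgroup.card_eq_one.1 h2)
  obtain ⟨⟨u, hu1, huN, hu2⟩, -, hc, -⟩ := hMaxI G p h.pp Q₁ Q₂ hQne hmax'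
  have hodd := hMOdd G p q m₁ m₂ h Q₁ Q₂ hQne hQD hmax'
  have hloc := hLocR G p q m₁ m₂ h (ND Q₁ Q₂) hodd
  have hpg := hPclS G p h.pp (ND Q₁ Q₂) hloc ((Q₁ : Subgroup G) ⊓ ND Q₁ Q₂)
    ((Q₂ : Subgroup G) ⊓ ND Q₁ Q₂) inf_le_right inf_le_right (Q₁.2.to_le inf_le_left)
    (Q₂.2.to_le inf_le_left)
  have h1 := hc _ hpg le_sup_right
  exact hu2 (h1 ((le_sup_left : (Q₁ : Subgroup G) ⊓ ND Q₁ Q₂ ≤ _) ⟨hu1, huN⟩))

end Cfsg.Agent.Lib.Helper14.PSpTI
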