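import Mathlib
import Cfsg.Prelude.Def_ClassicalGeometry

set_option autoImplicit false

namespace Cfsg.Agent.Lib.Helper14.Quad

open Matrix

variable {F : Type*} [Field F] {ι : Type} [Fintype ι] [DecidableEq ι]

theorem polarVec_dot (Q : QuadraticForm F (ι → F)) (v x : ι → F) :
    Cfsg.polarVec (⇑Q) v ⬝ᵥ x = QuadraticMap.polar (⇑Q) v x := by
  have h := LinearMap.pi_apply_eq_sum_univ (QuadraticMap.polarBilin Q v) x
  simp only [QuadraticMap.polarBilin_apply_apply] at h
  rw [h]
  simp only [dotProduct, Cfsg.polarVec, smul_eq_mul]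
  refine Finset.sum_congr rfl fun j _ => ?_
  rw [mul_comm]
  congr 2
  ext i
  simp [Pi.single_apply, eq_comm]

theorem vecMulVec_mulVec' (a b x : ι → F) :
    (Matrix.vecMulVec a b).mulVec x = (b ⬝ᵥ x) • a := by
  ext i
  simp only [Matrix.mulVec, Matrix.vecMulVec_apply, dotProduct, Pi.smul_apply, smul_eq_mul,
    Finset.sum_mul]
  refine Finset.sum_congr rfl fun j _ => ?_
  ring

theorem siegel_mulVec (Q : QuadraticForm F (ι → F)) (u v : ι → F) (c : F) (x : ι → F) :
    (Cfsg.siegelMatrix (⇑Q) u v c).mulVec x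
      = x + (c * QuadraticMap.polar (⇑Q) u x) • v - (c * QuadraticMap.polar (⇑Q) v x) • u := by
  unfold Cfsg.siegelMatrix
  rw [Matrix.add_mulVec, Matrix.one_mulVec, Matrix.smul_mulVec, Matrix.sub_mulVec,
    vecMulVec_mulVec', vecMulVec_mulVec', polarVec_dot, polarVec_dot]
  rw [smul_sub, smul_smul, smul_smul, add_sub_assoc]

theorem reflection_mulVec (Q : QuadraticForm F (ι → F)) (v : ι → F) (x : ι → F) :
    (Cfsg.reflectionMatrix (⇑Q) v).mulVec x
      = x - ((Q v)⁻¹ * QuadraticMap.polar (⇑Q) v x) • v := by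
  unfold Cfsg.reflectionMatrix
  rw [Matrix.sub_mulVec, Matrix.one_mulVec, Matrix.smul_mulVec,
    vecMulVec_mulVec', polarVec_dot, smul_smul]

/-- Q of a vector plus two multiples. -/
theorem map_add_smul_add_smul (Q : QuadraticForm F (ι → F)) (x a b : ι → F) (s t : F) :
    Q (x + s • a + t • b) = Q x + s * s * Q a + t * t * Q b
      + s * QuadraticMap.polar (⇑Q) x a + t * QuadraticMap.polar (⇑Q) x b
      + s * t * QuadraticMap.polar (⇑Q) a b := by
  rw [QuadraticMap.map_add (⇑Q), QuadraticMap.map_add (⇑Q), QuadraticMap.map_smul, QuadraticMap.map_smul,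
    QuadraticMap.polar_add_left, QuadraticMap.polar_smul_right, QuadraticMap.polar_smul_right,
    QuadraticMap.polar_smul_left, QuadraticMap.polar_smul_right]
  simp only [smul_eq_mul]
  ring

theorem siegel_isometry (Q : QuadraticForm F (ι → F)) (u v : ι → F) (hu : Q u = 0) (hv : Q v = 0)
    (huv : QuadraticMap.polar (⇑Q) u v = 0) (c : F) (x : ι → F) :
    Q ((Cfsg.siegelMatrix (⇑Q) u v c).mulVec x) = Q x := by
  rw [siegel_mulVec, sub_eq_add_neg, ← neg_smul, map_add_smul_add_smul, hu, hv,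
    QuadraticMap.polar_comm (⇑Q) v u, huv, QuadraticMap.polar_comm (⇑Q) x v,
    QuadraticMap.polar_comm (⇑Q) x u]
  ring

theorem siegel_mulVec_left (Q : QuadraticForm F (ι → F)) (u v : ι → F) (hu : Q u = 0)
    (huv : QuadraticMap.polar (⇑Q) u v = 0) (c : F) :
    (Cfsg.siegelMatrix (⇑Q) u v c).mulVec u = u := by
  rw [siegel_mulVec, QuadraticMap.polar_self, hu, QuadraticMap.polar_comm (⇑Q) v u, huv]
  simp

theorem siegel_mulVec_right (Q : QuadraticForm F (ι → F)) (u v : ι → F) (hv : Q v = 0)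
    (huv : QuadraticMap.polar (⇑Q) u v = 0) (c : F) :
    (Cfsg.siegelMatrix (⇑Q) u v c).mulVec v = v := by
  rw [siegel_mulVec, QuadraticMap.polar_self, hv, huv]
  simp

theorem matrix_ext_mulVec {M N : Matrix ι ι F} (h : ∀ x, M.mulVec x = N.mulVec x) : M = N := by
  apply Matrix.toLin'.injective
  refine LinearMap.ext fun x => ?_
  rw [Matrix.toLin'_apply, Matrix.toLin'_apply]
  exact h x

theorem siegel_mul (Q : QuadraticForm F (ι → F)) (u v : ι → F) (hu : Q u = 0) (hv : Q v = 0)
    (huv : QuadraticMap.polar (⇑Q) u v = 0) (c d : F) :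
    Cfsg.siegelMatrix (⇑Q) u v c * Cfsg.siegelMatrix (⇑Q) u v d
      = Cfsg.siegelMatrix (⇑Q) u v (c + d) := by
  apply matrix_ext_mulVec
  intro x
  rw [← Matrix.mulVec_mulVec, siegel_mulVec Q u v d x, siegel_mulVec, siegel_mulVec]
  simp only [QuadraticMap.polar_add_right, QuadraticMap.polar_sub_right,
    QuadraticMap.polar_smul_right, QuadraticMap.polar_self, hu, hv, huv,
    QuadraticMap.polar_comm (⇑Q) v u, smul_eq_mul, mul_zero, smul_zero, add_zero, sub_zero]
  module

theorem siegel_zero (Q : QuadraticForm F (ι → F)) (u v : ι → F) :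
    Cfsg.siegelMatrix (⇑Q) u v 0 = 1 := by
  simp [Cfsg.siegelMatrix]

end Cfsg.Agent.Lib.Helper14.Quad
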