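import Mathlib
import Cfsg.Agent.Lib.Helper14.TC3Stmt
import Cfsg.Agent.Lib.Helper3.TDBasic
import Cfsg.Agent.Lib.Helper3.MGroup
import Cfsg.Agent.Lib.CT.Clifford

/-!
# S4460 piece H4
-/

set_option autoImplicit false

namespace Cfsg.Agent.Lib.Helper14.TC3H4

open Cfsg Cfsg.Agent.Lib.Helper14.TC3Stmt
open Cfsg.Agent.Lib.Helper80.Integrality Cfsg.Agent.Lib.Helper80.Restrict
open Cfsg.Agent.Lib.CT.Wedderburn
open scoped ComplexConjugate commutatorElement

universe u

theorem main : H4.{u} := by
  classical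
  intro G _ _ m n hm hn hU χ ψ' hχ hψ' hval
  have hχc : IsCharacter G (χ : G → ℂ) := isCharacter_of_irr χ.2
  have hψc : IsCharacter G (ψ' : G → ℂ) := isCharacter_of_irr ψ'.2
  have hχ1 : (χ : G → ℂ) 1 = (m : ℂ) := by rw [apply_one_eq_charDegree hχc, hχ]
  have hψ1 : (ψ' : G → ℂ) 1 = (n : ℂ) := by rw [apply_one_eq_charDegree hψc, hψ']
  obtain ⟨Kψ, hKn, hKmem⟩ := Cfsg.Agent.Lib.CT.Kernel.exists_normal_ker hψc
  have hDn : (commutator G).Normal := inferInstance
  have hLn : (commutator G ⊓ Kψ).Normal := by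
    have := hKn
    infer_instance
  by_cases hLb : commutator G ⊓ Kψ = ⊥
  · -- χ vanishes on D \ {1}
    have hvan : ∀ g ∈ commutator G, g ≠ 1 → (χ : G → ℂ) g = 0 := by
      intro g hg hg1
      by_contra h0
      have h1 := hval g hg h0
      have h2 : g ∈ commutator G ⊓ Kψ := ⟨hg, (hKmem g).2 (by rw [h1, hψ1])⟩
      rw [hLb, Subgroup.mem_bot] at h2
      exact hg1 h2
    haveI : Fintype (commutator G) := Fintype.ofFinite _
    have htriv : IsIrrCharacter (commutator G) (fun _ : commutator G => (1 : ℂ)) :=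
      Cfsg.Agent.Lib.CT.Ops.isIrrCharacter_one
    have hinner : classInner (fun d : commutator G => (χ : G → ℂ) d)
        (fun _ : commutator G => (1 : ℂ)) ≠ 0 := by
      unfold classInner
      have hsum : ∑ d : commutator G, (χ : G → ℂ) d * conj ((1 : ℂ)) = (m : ℂ) := by
        rw [Finset.sum_eq_single (1 : commutator G)]
        · simp [hχ1]
        · intro d _ hd
          have : (χ : G → ℂ) d = 0 := hvan d d.2 (by
            intro h; apply hd; exact Subtype.ext h)
          simp [this]
        · intro h; exact absurd (Finset.mem_univ _) h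
      rw [hsum]
      have h1 : (Nat.card (commutator G) : ℂ) ≠ 0 := by exact_mod_cast Nat.card_pos.ne'
      have h2 : (m : ℂ) ≠ 0 := by exact_mod_cast (by omega : m ≠ 0)
      exact mul_ne_zero (inv_ne_zero h1) h2
    have hcl := Cfsg.Agent.Lib.CT.Clifford.clifford (commutator G) hDn (χ : G → ℂ) χ.2
      (fun _ : commutator G => (1 : ℂ)) htriv hinner
    have hset : {ψ : commutator G → ℂ | ∃ g : G, ψ = fun n : commutator G =>
        (fun _ : commutator G => (1 : ℂ)) ⟨g * n * g⁻¹, hDn.conj_mem n n.2 g⟩} =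
        {fun _ : commutator G => (1 : ℂ)} := by
      ext ψ
      simp
    rw [hset, finsum_mem_singleton] at hcl
    have hconst : ∀ d : commutator G, (χ : G → ℂ) d = (χ : G → ℂ) 1 := by
      intro d
      have h1 := congrFun hcl d
      have h2 := congrFun hcl 1
      simp only [Pi.smul_apply, smul_eq_mul, mul_one] at h1 h2
      rw [h1]
      exact h2.symm
    have hlin : (χ : G → ℂ) 1 = 1 :=
      Cfsg.Agent.Lib.Helper3.MGroup.apply_one_eq_one_of_comm χ.2 (fun a b => by
        have hmem : ⁅a, b⁆ ∈ commutator G := by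
          rw [commutator_def]
          exact Subgroup.commutator_mem_commutator (Subgroup.mem_top _) (Subgroup.mem_top _)
        exact hconst ⟨_, hmem⟩)
    rw [hχ1] at hlin
    have : m = 1 := by exact_mod_cast hlin
    omega
  · have hle : commutator G ≤ commutator G ⊓ Kψ := hU _ hLn hLb
    have hlin : (ψ' : G → ℂ) 1 = 1 :=
      Cfsg.Agent.Lib.Helper3.MGroup.apply_one_eq_one_of_comm ψ'.2 (fun a b => by
        have hmem : ⁅a, b⁆ ∈ commutator G := by
          rw [commutator_def]
          exact Subgroup.commutator_mem_commutator (Subgroup.mem_top _) (Subgroup.mem_top _)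
        exact (hKmem _).1 (hle hmem).2)
    rw [hψ1] at hlin
    have : n = 1 := by exact_mod_cast hlin
    omega

end Cfsg.Agent.Lib.Helper14.TC3H4
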