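import Mathlib
import Cfsg.Agent.S2616
import Cfsg.Agent.Lib.Helper44.Gram

set_option autoImplicit false

/-!
# The type of an even-dimensional symmetric form over a finite field of odd characteristic

A non-degenerate symmetric bilinear form on a `2k`-dimensional space has a totally isotropic
`k`-dimensional subspace iff `(-1)^k` times its discriminant is a square.
-/

namespace Cfsg.Agent.Lib.Helper14.TypeCrit

open Module

section

variable {F V : Type*} [Field F] [AddCommGroup V] [Module F V]

theorem span_isotropic (B : LinearMap.BilinForm F V) (S : Set V)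
    (h : ∀ s ∈ S, ∀ t ∈ S, B s t = 0) :
    ∀ u ∈ Submodule.span F S, ∀ v ∈ Submodule.span F S, B u v = 0 := by
  intro u hu v hv
  have h1 : ∀ s ∈ S, ∀ v ∈ Submodule.span F S, B s v = 0 := by
    intro s hs v hv
    have hle : Submodule.span F S ≤ LinearMap.ker (B s) := by
      rw [Submodule.span_le]
      intro t ht
      exact h s hs t ht
    exact hle hv
  have hle : Submodule.span F S ≤ LinearMap.ker (B.flip v) := by
    rw [Submodule.span_le]
    intro s hs
    rw [SetLike.mem_coe, LinearMap.mem_ker]
    exact h1 s hs v hv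
  exact LinearMap.mem_ker.mp (hle hu)

/-- a totally isotropic subspace of half the dimension forces `(-1)^k disc` to be a square -/
theorem isSquare_of_isotropic [FiniteDimensional F V] (B : LinearMap.BilinForm F V)
    (hS : B.IsSymm) (k : ℕ) (hV : finrank F V = 2 * k)
    {ι : Type*} [Fintype ι] [DecidableEq ι] (b : Basis ι F V)
    (X : Submodule F V) (hX : finrank F X = k) (hti : ∀ x ∈ X, ∀ y ∈ X, B x y = 0) :
    IsSquare ((-1 : F) ^ k * (LinearMap.BilinForm.toMatrix b B).det) := by
  obtain ⟨X', hc⟩ := Submodule.exists_isCompl X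
  have hX' : finrank F X' = k := by
    have := Submodule.finrank_add_eq_of_isCompl hc
    omega
  let bX : Basis (Fin k) F X := Module.finBasisOfFinrankEq F X hX
  let bX' : Basis (Fin k) F X' := Module.finBasisOfFinrankEq F X' hX'
  let b₀ : Basis (Fin k ⊕ Fin k) F V :=
    (bX.prod bX').map (Submodule.prodEquivOfIsCompl X X' hc)
  have hl : ∀ i, b₀ (Sum.inl i) = (bX i : V) := by
    intro i
    simp [b₀]
  have hr : ∀ i, b₀ (Sum.inr i) = (bX' i : V) := by
    intro i
    simp [b₀]
  let A : Matrix (Fin k) (Fin k) F := Matrix.of fun i j => B (bX i) (bX' j)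
  let D : Matrix (Fin k) (Fin k) F := Matrix.of fun i j => B (bX' i) (bX' j)
  have hG : LinearMap.BilinForm.toMatrix b₀ B = Matrix.fromBlocks 0 A A.transpose D := by
    ext (i | i) (j | j)
    · rw [LinearMap.BilinForm.toMatrix_apply, hl, hl]
      simp only [Matrix.fromBlocks_apply₁₁, Matrix.zero_apply]
      exact hti _ (bX i).2 _ (bX j).2
    · rw [LinearMap.BilinForm.toMatrix_apply, hl, hr]
      simp [A]
    · rw [LinearMap.BilinForm.toMatrix_apply, hr, hl]
      simp only [Matrix.fromBlocks_apply₂₁, Matrix.transpose_apply, A, Matrix.of_apply]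
      exact hS.eq _ _
    · rw [LinearMap.BilinForm.toMatrix_apply, hr, hr]
      simp [D]
  have hdet : (-1 : F) ^ k * (LinearMap.BilinForm.toMatrix b₀ B).det = A.det ^ 2 := by
    have hmul : Matrix.fromBlocks 0 A A.transpose D *
        Matrix.fromBlocks (0 : Matrix (Fin k) (Fin k) F) 1 1 0 =
        Matrix.fromBlocks A 0 D A.transpose := by
      rw [Matrix.fromBlocks_multiply]
      simp
    have h2 := congrArg Matrix.det hmul
    rw [Matrix.det_mul, Cfsg.Agent.Lib.Helper44.Gram.det_antidiag, Matrix.det_fromBlocks_zero₁₂,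
      Matrix.det_transpose] at h2
    rw [hG, mul_comm, h2]
    ring
  obtain ⟨d, hd0, hd⟩ := Cfsg.Agent.Lib.Helper44.Gram.gram_det_change b b₀ B
  rw [hd]
  refine ⟨d * A.det, ?_⟩
  linear_combination d ^ 2 * hdet

/-- converse: over a finite field of odd characteristic, a square `(-1)^k disc` gives a
totally isotropic subspace of half the dimension -/
theorem exists_isotropic_of_isSquare [Finite F] [FiniteDimensional F V] (h2 : (2 : F) ≠ 0)
    (B : LinearMap.BilinForm F V) (hS : B.IsSymm) (hN : B.Nondegenerate) (k : ℕ) (hk : 1 ≤ k)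
    (hV : finrank F V = 2 * k) {ι : Type*} [Fintype ι] [DecidableEq ι] (b : Basis ι F V)
    (hsq : IsSquare ((-1 : F) ^ k * (LinearMap.BilinForm.toMatrix b B).det)) :
    ∃ X : Submodule F V, finrank F X = k ∧ ∀ x ∈ X, ∀ y ∈ X, B x y = 0 := by
  classical
  let Q : QuadraticForm F V := LinearMap.BilinMap.toQuadraticMap B
  have hQ : ∀ v, Q v = B v v := fun v => rfl
  have hpol : ∀ u v, QuadraticMap.polar Q u v = 2 * B u v := by
    intro u v
    simp only [QuadraticMap.polar, hQ, map_add, LinearMap.add_apply]
    rw [hS.eq v u]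
    ring
  have hPB : QuadraticMap.polarBilin Q = (2 : F) • B := by
    ext u v
    simp [QuadraticMap.polarBilin_apply_apply, hpol]
  have hQN : (QuadraticMap.polarBilin Q).Nondegenerate := by
    rw [hPB]
    constructor
    · intro x hx
      apply hN.1 x
      intro y
      have := hx y
      simp only [LinearMap.smul_apply, smul_eq_mul] at this
      exact (mul_eq_zero.mp this).resolve_left h2
    · intro y hy
      apply hN.2 y
      intro x
      have := hy x
      simp only [LinearMap.smul_apply, smul_eq_mul] at this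
      exact (mul_eq_zero.mp this).resolve_left h2
  rcases Cfsg.Agent.S2616.result hk hV Q hQN with
    ⟨bh, h1, h2', h3⟩ | ⟨be, ζ, hζ, h1, h2', h3, h4, h5, h6, h7⟩
  · -- hyperbolic
    refine ⟨Submodule.span F (Set.range (fun i : Fin k => bh (Sum.inl i))), ?_, ?_⟩
    · have hli : LinearIndependent F (fun i : Fin k => bh (Sum.inl i)) :=
        bh.linearIndependent.comp _ Sum.inl_injective
      rw [finrank_span_eq_card hli, Fintype.card_fin]
    · apply span_isotropic
      rintro _ ⟨i, rfl⟩ _ ⟨j, rfl⟩
      have := (h3 i j).1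
      rw [hpol] at this
      exact (mul_eq_zero.mp this).resolve_left h2
  · -- elliptic: contradiction
    exfalso
    have hM : LinearMap.BilinForm.toMatrix be (QuadraticMap.polarBilin Q) =
        Matrix.fromBlocks (Matrix.fromBlocks (0 : Matrix (Fin (k - 1)) (Fin (k - 1)) F) 1 1 0) 0 0
          !![2, 1; 1, 2 * ζ] := by
      ext i j
      rw [LinearMap.BilinForm.toMatrix_apply, QuadraticMap.polarBilin_apply_apply]
      rcases i with (i | i) | i <;> rcases j with (j | j) | j
      · simp [(h3 i j).1]
      · simp [h2' i j, Matrix.one_apply]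
      · simp [(h4 i j).1]
      · rw [QuadraticMap.polar_comm]
        simp [h2' j i, Matrix.one_apply, eq_comm]
      · simp [(h3 i j).2]
      · simp [(h4 i j).2]
      · rw [QuadraticMap.polar_comm]
        simp [(h4 j i).1]
      · rw [QuadraticMap.polar_comm]
        simp [(h4 j i).2]
      · fin_cases i <;> fin_cases j
        · simp [QuadraticMap.polar_self, h5]
        · simpa using h6
        · rw [QuadraticMap.polar_comm]
          simpa using h6
        · simp [QuadraticMap.polar_self, h7]
    have hdetM : (LinearMap.BilinForm.toMatrix be (QuadraticMap.polarBilin Q)).det =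
        (-1) ^ (k - 1) * (4 * ζ - 1) := by
      rw [hM, Matrix.det_fromBlocks_zero₂₁, Cfsg.Agent.Lib.Helper44.Gram.det_antidiag,
        Matrix.det_fin_two_of]
      ring
    obtain ⟨d, hd0, hd⟩ := Cfsg.Agent.Lib.Helper44.Gram.gram_det_change b be
      (QuadraticMap.polarBilin Q)
    have hb2 : LinearMap.BilinForm.toMatrix b (QuadraticMap.polarBilin Q) =
        (2 : F) • LinearMap.BilinForm.toMatrix b B := by
      rw [hPB, map_smul]
    have hcard : Fintype.card ι = 2 * k := by
      rw [← Module.finrank_eq_card_basis b, hV]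
    rw [hb2, Matrix.det_smul, hcard, hdetM] at hd
    obtain ⟨r, hr⟩ := hsq
    have e : (-1 : F) ^ k = (-1) ^ (k - 1) * (-1) := by
      rw [← pow_succ, Nat.sub_add_cancel hk]
    have hsq1 : ((-1 : F) ^ (k - 1)) ^ 2 = 1 := by
      rw [← pow_mul, mul_comm, pow_mul]
      simp
    have h2k : (2 : F) ^ k ≠ 0 := pow_ne_zero _ h2
    -- (2^k r / d)^2 = 1 - 4 ζ
    have hs : ((2 : F) ^ k * r / d) ^ 2 = 1 - 4 * ζ := by
      rw [div_pow, div_eq_iff (pow_ne_zero _ hd0)]
      have h2k' : (2 : F) ^ (2 * k) = (2 ^ k) ^ 2 := by rw [← pow_mul, mul_comm]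
      rw [h2k'] at hd
      have hr' : (-1 : F) ^ (k - 1) * (-1) * (LinearMap.BilinForm.toMatrix b B).det = r * r := by
        rw [← e]; exact hr
      linear_combination (-(2 ^ k) ^ 2) * hr' + (-((-1 : F) ^ (k - 1))) * hd +
        (-(d ^ 2 * (4 * ζ - 1))) * hsq1
    apply hζ (((2 : F) ^ k * r / d - 1) / 2)
    field_simp
    have hs' := hs
    field_simp at hs'
    linear_combination hs'

end

section Tensor

open TensorProduct

variable {F U W : Type*} [Field F] [AddCommGroup U] [Module F U] [AddCommGroup W] [Module F W]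

/-- the Gram matrix of a tensor product of forms is the Kronecker product -/
theorem toMatrix_tmul {ι κ : Type*} [Fintype ι] [DecidableEq ι] [Fintype κ] [DecidableEq κ]
    (b₁ : Basis ι F U) (b₂ : Basis κ F W) (B₁ : LinearMap.BilinForm F U)
    (B₂ : LinearMap.BilinForm F W) :
    LinearMap.BilinForm.toMatrix (b₁.tensorProduct b₂) (B₁.tmul B₂) =
      Matrix.kroneckerMap (· * ·) (LinearMap.BilinForm.toMatrix b₁ B₁)
        (LinearMap.BilinForm.toMatrix b₂ B₂) := by
  ext ⟨i, j⟩ ⟨i', j'⟩
  rw [LinearMap.BilinForm.toMatrix_apply, Basis.tensorProduct_apply, Basis.tensorProduct_apply,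
    LinearMap.BilinForm.tensorDistrib_tmul]
  simp [Matrix.kroneckerMap_apply, LinearMap.BilinForm.toMatrix_apply, mul_comm]

theorem det_tmul {ι κ : Type*} [Fintype ι] [DecidableEq ι] [Fintype κ] [DecidableEq κ]
    (b₁ : Basis ι F U) (b₂ : Basis κ F W) (B₁ : LinearMap.BilinForm F U)
    (B₂ : LinearMap.BilinForm F W) :
    (LinearMap.BilinForm.toMatrix (b₁.tensorProduct b₂) (B₁.tmul B₂)).det =
      (LinearMap.BilinForm.toMatrix b₁ B₁).det ^ Fintype.card κ *
        (LinearMap.BilinForm.toMatrix b₂ B₂).det ^ Fintype.card ι := by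
  rw [toMatrix_tmul]
  exact Matrix.det_kronecker _ _

end Tensor

end Cfsg.Agent.Lib.Helper14.TypeCrit
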